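import Mathlib
import Cfsg.Agent.Base

/-! Weyl systems: projective representations of a symplectic space over `ZMod 3`. -/

set_option autoImplicit false
open Matrix Cfsg Cfsg.Geo

namespace H21.C3

variable {F : Type*} [Field F]

/-- the character `a ↦ ω ^ a` of `ZMod 3` -/
def ch (ω : F) (a : ZMod 3) : F := ω ^ a.val

theorem z3 (a : ZMod 3) : a = 0 ∨ a = 1 ∨ a = 2 := by revert a; decide

variable {ω : F}

@[simp] theorem ch_zero : ch ω 0 = 1 := by simp [ch]
theorem ch_one : ch ω 1 = ω := by simp [ch, show (1 : ZMod 3).val = 1 from rfl]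
theorem ch_two : ch ω 2 = ω ^ 2 := by simp [ch, show (2 : ZMod 3).val = 2 from rfl]

theorem cube (h : ω ^ 2 + ω + 1 = 0) : ω ^ 3 = 1 := by linear_combination (ω - 1) * h

theorem ch_add (h : ω ^ 2 + ω + 1 = 0) (a b : ZMod 3) : ch ω (a + b) = ch ω a * ch ω b := by
  unfold ch
  rw [ZMod.val_add, ← pow_add, ← pow_eq_pow_mod _ (cube h)]

theorem ch_cube (h : ω ^ 2 + ω + 1 = 0) (a : ZMod 3) : ch ω a ^ 3 = 1 := by
  rw [ch, ← pow_mul, mul_comm, pow_mul, cube h, one_pow]

theorem ch_ne (h : ω ^ 2 + ω + 1 = 0) (a : ZMod 3) : ch ω a ≠ 0 := fun e => by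
  simpa [e] using ch_cube h a

theorem ch_neg (h : ω ^ 2 + ω + 1 = 0) (a : ZMod 3) : ch ω a * ch ω (-a) = 1 := by
  rw [← ch_add h, add_neg_cancel, ch_zero]

theorem om_ne_one (h : ω ^ 2 + ω + 1 = 0) (h3 : (3 : F) ≠ 0) : ω ≠ 1 := fun e => h3 (by
  rw [e] at h; linear_combination h)

theorem ch_eq_one (h : ω ^ 2 + ω + 1 = 0) (h3 : (3 : F) ≠ 0) {a : ZMod 3} (e : ch ω a = 1) : a = 0 := by
  rcases z3 a with rfl | rfl | rfl
  · rfl
  · exact absurd (ch_one.symm.trans e) (om_ne_one h h3)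
  · rw [ch_two] at e
    exact absurd (by linear_combination cube h - ω * e) (om_ne_one h h3)

theorem ch_inj (h : ω ^ 2 + ω + 1 = 0) (h3 : (3 : F) ≠ 0) {a b : ZMod 3} (e : ch ω a = ch ω b) : a = b := by
  have : ch ω (a + -b) = 1 := by rw [ch_add h, e, ch_neg h]
  exact sub_eq_zero.1 (by rw [sub_eq_add_neg]; exact ch_eq_one h h3 this)

theorem exists_ch (h : ω ^ 2 + ω + 1 = 0) {c : F} (hc : c ^ 3 = 1) : ∃ a, c = ch ω a := by
  have : (c - 1) * ((c - ω) * (c - ω ^ 2)) = 0 := by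
    linear_combination hc + (c - c ^ 2) * h + (c - 1) * cube h
  rcases mul_eq_zero.1 this with e | e
  · exact ⟨0, by rw [ch_zero]; exact sub_eq_zero.1 e⟩
  rcases mul_eq_zero.1 e with e | e
  · exact ⟨1, by rw [ch_one]; exact sub_eq_zero.1 e⟩
  · exact ⟨2, by rw [ch_two]; exact sub_eq_zero.1 e⟩

variable {n : Type} [Fintype n] [DecidableEq n]

/-- the projective linear group -/
abbrev PG (n : Type) [Fintype n] [DecidableEq n] (F : Type*) [Field F] := GL n F ⧸ scalars n F

/-- projection to the projective group -/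
def pj : GL n F →* PG n F := QuotientGroup.mk' _

theorem pj_eq_one {g : GL n F} : pj g = 1 ↔ g ∈ scalars n F := QuotientGroup.eq_one_iff g

theorem smul_ne [Nonempty n] {g : GL n F} {c : F} {M : Matrix n n F} (e : g.val = c • M) : c ≠ 0 := by
  rintro rfl
  exact g.ne_zero (by simpa using e)

theorem smul_cancel [Nonempty n] (g : GL n F) {c d : F} (e : c • g.val = d • g.val) : c = d := by
  by_contra h
  exact g.ne_zero ((smul_eq_zero.1 (show (c - d) • g.val = 0 by rw [sub_smul, e, sub_self])).resolve_left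
    (sub_ne_zero.2 h))

theorem pj_eq [Nonempty n] {g h : GL n F} : pj g = pj h ↔ ∃ c : F, g.val = c • h.val := by
  rw [← mul_inv_eq_one, ← map_inv, ← map_mul, pj_eq_one, mem_scalars_iff]
  constructor
  · rintro ⟨c, e⟩
    refine ⟨c, ?_⟩
    have := congrArg (· * h.val) e
    simpa [mul_assoc] using this
  · rintro ⟨c, e⟩
    exact ⟨Units.mk0 c (smul_ne e), by simp [e]⟩

theorem pj_one [Nonempty n] {g : GL n F} : pj g = 1 ↔ ∃ c : F, g.val = c • 1 := by
  rw [← map_one pj, pj_eq]; rfl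

theorem mem_sl {g : GL n F} : g ∈ specialLinear n F ↔ g.val.det = 1 := by
  rw [specialLinear, MonoidHom.mem_ker, Units.ext_iff]; rfl

/-- conjugate transpose -/
def st (σ : F →+* F) (M : Matrix n n F) : Matrix n n F := (M.map σ)ᵀ

omit [DecidableEq n] in
theorem st_mul (σ : F →+* F) (M N : Matrix n n F) : st σ (M * N) = st σ N * st σ M := by
  simp [st, Matrix.map_mul, transpose_mul]

omit [Fintype n] in
theorem st_one (σ : F →+* F) : st σ (1 : Matrix n n F) = 1 := by simp [st]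

omit [Fintype n] [DecidableEq n] in
theorem st_add (σ : F →+* F) (M N : Matrix n n F) : st σ (M + N) = st σ M + st σ N := by
  ext; simp [st]

omit [Fintype n] [DecidableEq n] in
theorem st_smul (σ : F →+* F) (c : F) (M : Matrix n n F) : st σ (c • M) = σ c • st σ M := by
  ext; simp [st]

/-- the unitary group when `u` holds, the general linear group otherwise -/
def Un (u : Prop) (σ : F →+* F) (n : Type) [Fintype n] [DecidableEq n] : Subgroup (GL n F) where
  carrier := {g | u → st σ g.val * g.val = 1}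
  one_mem' _ := by simp [st_one]
  mul_mem' {a b} ha hb h := by
    rw [Units.val_mul, st_mul, mul_assoc, ← mul_assoc _ a.val, ha h, one_mul, hb h]
  inv_mem' {a} ha h := by
    have e : st σ a.val = (a⁻¹).val := by
      have := congrArg (· * (a⁻¹).val) (ha h)
      simpa [mul_assoc] using this
    have : st σ (a⁻¹).val * st σ a.val = 1 := by rw [← st_mul, Units.mul_inv, st_one]
    rwa [e] at this

theorem mem_Un {u : Prop} {σ : F →+* F} {g : GL n F} : g ∈ Un u σ n ↔ (u → st σ g.val * g.val = 1) := Iff.rfl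

/-- the special linear or special unitary group -/
def GG (u : Prop) (σ : F →+* F) (n : Type) [Fintype n] [DecidableEq n] : Subgroup (GL n F) :=
  Un u σ n ⊓ specialLinear n F

theorem mem_GG {u : Prop} {σ : F →+* F} {g : GL n F} : g ∈ GG u σ n ↔ g ∈ Un u σ n ∧ g.val.det = 1 := by
  rw [GG, Subgroup.mem_inf, mem_sl]

/-- A Weyl system -/
structure Wy (F : Type*) [Field F] (n : Type) [Fintype n] [DecidableEq n] (E : Type) [AddCommGroup E]
    [Module (ZMod 3) E] where
  ω : F
  hω : ω ^ 2 + ω + 1 = 0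
  h3 : (3 : F) ≠ 0
  B : E →ₗ[ZMod 3] E →ₗ[ZMod 3] ZMod 3
  alt : ∀ u, B u u = 0
  nd : ∀ u, u ≠ 0 → ∃ v, B u v ≠ 0
  W : E → GL n F
  W0 : W 0 = 1
  mul : ∀ u v, (W u).val * (W v).val = ch ω (B u v) • (W (u + v)).val
  cent : ∀ M : Matrix n n F, (∀ u, M * (W u).val = (W u).val * M) → ∃ c : F, M = c • 1

theorem three_smul {E : Type} [AddCommGroup E] [Module (ZMod 3) E] (u : E) : u + u + u = 0 := by
  have : ((1 : ZMod 3) + 1 + 1) • u = 0 := by rw [show (1 : ZMod 3) + 1 + 1 = 0 from rfl, zero_smul]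
  simpa [add_smul] using this

theorem add_self3 {E : Type} [AddCommGroup E] [Module (ZMod 3) E] (u : E) : u + u = -u :=
  eq_neg_of_add_eq_zero_left (three_smul u)

namespace Wy

variable {E : Type} [AddCommGroup E] [Module (ZMod 3) E] (P : Wy F n E)

theorem skew (u v : E) : P.B u v = -P.B v u := by
  have := P.alt (u + v)
  simp only [map_add, LinearMap.add_apply, P.alt, zero_add, add_zero] at this
  linear_combination this

theorem exists_B {u : E} (h : u ≠ 0) : ∃ v, P.B u v = 1 := by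
  obtain ⟨v, hv⟩ := P.nd u h
  exact ⟨(P.B u v)⁻¹ • v, by
    haveI : Fact (Nat.Prime 3) := ⟨Nat.prime_three⟩
    rw [map_smul, smul_eq_mul, inv_mul_cancel₀ hv]⟩

theorem comm (u v : E) : (P.W u).val * (P.W v).val = ch P.ω (-P.B u v) • ((P.W v).val * (P.W u).val) := by
  rw [P.mul, P.mul, smul_smul, ← ch_add P.hω, add_comm v u, P.skew v u, add_self3, neg_neg]

theorem W_add {u v : E} (h : P.B u v = 0) : P.W (u + v) = P.W u * P.W v :=
  Units.ext (by rw [Units.val_mul, P.mul, h, ch_zero, one_smul])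

theorem W_neg (u : E) : P.W (-u) = (P.W u)⁻¹ :=
  eq_inv_of_mul_eq_one_left (by rw [← P.W_add (by simp [P.alt]), neg_add_cancel, P.W0])

theorem W_sq (u : E) : P.W u * P.W u = P.W (-u) := by rw [← P.W_add (P.alt u), add_self3]

theorem W_cube (u : E) : P.W u ^ 3 = 1 := by
  rw [pow_succ, pow_two, P.W_sq, P.W_neg, inv_mul_cancel]

/-- image in the projective group -/
def w (u : E) : PG n F := pj (P.W u)

variable [Nonempty n]

theorem w_add (u v : E) : P.w (u + v) = P.w u * P.w v := by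
  rw [w, w, w, ← map_mul, eq_comm, pj_eq]
  exact ⟨_, P.mul u v⟩

omit [Nonempty n] in
theorem w_zero : P.w 0 = 1 := by rw [w, P.W0, map_one]

omit [Nonempty n] in
theorem w_neg (u : E) : P.w (-u) = (P.w u)⁻¹ := by rw [w, w, P.W_neg, map_inv]

theorem w_comm (u v : E) : P.w u * P.w v = P.w v * P.w u := by rw [← w_add, ← w_add, add_comm]

theorem w_eq_one {u : E} (h : P.w u = 1) : u = 0 := by
  by_contra h0
  obtain ⟨v, hv⟩ := P.exists_B h0
  obtain ⟨c, e⟩ := pj_one.1 h
  have k := P.comm u v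
  rw [e, hv, smul_mul_assoc, mul_smul_comm, one_mul, mul_one, smul_smul] at k
  have := smul_cancel _ k
  have : ch P.ω (-1) = 1 := mul_right_cancel₀ (smul_ne e) (by rw [← this, one_mul])
  exact absurd (ch_eq_one P.hω P.h3 this) (by decide)

theorem w_inj {u v : E} (h : P.w u = P.w v) : u = v :=
  sub_eq_zero.1 (P.w_eq_one (by rw [sub_eq_add_neg, w_add, w_neg, h, mul_inv_cancel]))

/-- `g` maps `W u` to a multiple of `W v` -/
def Mp (g : GL n F) (u v : E) : Prop := pj g * P.w u * (pj g)⁻¹ = P.w v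

variable {P} {g h : GL n F} {u v u' v' x : E}

theorem mp_iff : P.Mp g u v ↔ ∃ c : F, g.val * (P.W u).val = c • ((P.W v).val * g.val) := by
  rw [Mp, mul_inv_eq_iff_eq_mul, w, w, ← map_mul, ← map_mul, pj_eq]; rfl

theorem Mp.ch (k : P.Mp g u v) : ∃ a, g.val * (P.W u).val = ch P.ω a • ((P.W v).val * g.val) := by
  obtain ⟨c, e⟩ := mp_iff.1 k
  have e1 : (g * P.W u * g⁻¹).val = c • (P.W v).val := by
    rw [Units.val_mul, Units.val_mul, e, smul_mul_assoc, mul_assoc, Units.mul_inv, mul_one]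
  have e2 : (g * P.W u * g⁻¹) ^ 3 = 1 := by rw [conj_pow, P.W_cube, mul_one, mul_inv_cancel]
  have e3 := congrArg Units.val e2
  rw [Units.val_pow_eq_pow_val, e1, smul_pow, ← Units.val_pow_eq_pow_val, P.W_cube] at e3
  obtain ⟨a, rfl⟩ := exists_ch P.hω (smul_cancel 1 (e3.trans (one_smul _ _).symm))
  exact ⟨a, e⟩

omit [Nonempty n] in
theorem Mp.mul (k : P.Mp g v x) (k' : P.Mp h u v) : P.Mp (g * h) u x := by
  unfold Mp at *
  rw [← k, ← k', map_mul]; group

omit [Nonempty n] in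
theorem Mp.inv (k : P.Mp g u v) : P.Mp g⁻¹ v u := by
  unfold Mp at *
  rw [← k, map_inv]; group

theorem Mp.add (k : P.Mp g u v) (k' : P.Mp g u' v') : P.Mp g (u + u') (v + v') := by
  unfold Mp at *
  rw [w_add, w_add, ← k, ← k']; group

omit [Nonempty n] in
theorem Mp.neg (k : P.Mp g u v) : P.Mp g (-u) (-v) := by
  unfold Mp at *
  rw [w_neg, w_neg, ← k]; group

omit [Nonempty n] in
theorem mp_zero (g : GL n F) : P.Mp g 0 0 := by simp [Mp, w_zero]

theorem Mp.smul (k : P.Mp g u v) (a : ZMod 3) : P.Mp g (a • u) (a • v) := by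
  rcases z3 a with rfl | rfl | rfl
  · simpa using mp_zero g
  · simpa using k
  · simpa [two_smul] using k.add k

theorem Mp.uniq (k : P.Mp g u v) (k' : P.Mp g u v') : v = v' := P.w_inj (k.symm.trans k')

theorem Mp.inj (k : P.Mp g u v) (k' : P.Mp g u' v) : u = u' := k.inv.uniq k'.inv

theorem Mp.ne_zero (k : P.Mp g u v) (h : u ≠ 0) : v ≠ 0 := by
  rintro rfl
  exact h (k.inj (mp_zero g))

omit [Nonempty n] in
theorem Mp.congr (k : P.Mp g u v) (e : pj g = pj h) : P.Mp h u v := by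
  unfold Mp at *; rw [← e, k]

theorem mp_of_w (e : pj g = P.w x) (u : E) : P.Mp g u u := by
  rw [Mp, e, P.w_comm, mul_inv_cancel_right]

theorem mp_W (x u : E) : P.Mp (P.W x) u u := mp_of_w rfl u

theorem mp_one (u : E) : P.Mp 1 u u := by simp [Mp]

omit [Nonempty n] in
theorem mp_of_eq (e : g * P.W u = P.W v * g) : P.Mp g u v := by
  rw [Mp, mul_inv_eq_iff_eq_mul, w, w, ← map_mul, ← map_mul, e]

theorem Mp.B_eq (k : P.Mp g u v) (k' : P.Mp g u' v') : P.B v v' = P.B u u' := by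
  obtain ⟨c, e⟩ := mp_iff.1 k
  obtain ⟨c', e'⟩ := mp_iff.1 k'
  have h1 : g.val * ((P.W u).val * (P.W u').val) = (c * c') • (P.W v * P.W v' * g).val := by
    rw [← mul_assoc, e, smul_mul_assoc, mul_assoc, e', mul_smul_comm, smul_smul, Units.val_mul, Units.val_mul,
      mul_assoc]
  have h2 : g.val * ((P.W u').val * (P.W u).val) = (c * c') • (P.W v' * P.W v * g).val := by
    rw [← mul_assoc, e', smul_mul_assoc, mul_assoc, e, mul_smul_comm, smul_smul, Units.val_mul, Units.val_mul,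
      mul_assoc, mul_comm c]
  rw [P.comm u u', mul_smul_comm, h2, smul_smul, Units.val_mul (P.W v * P.W v'), Units.val_mul (P.W v),
    P.comm v v', smul_mul_assoc, smul_smul, ← Units.val_mul, ← Units.val_mul] at h1
  have hc : c * c' ≠ 0 := mul_ne_zero (smul_ne (g := g * P.W u) e) (smul_ne (g := g * P.W u') e')
  have := smul_cancel _ h1
  rw [mul_comm] at this
  exact neg_injective (ch_inj P.hω P.h3 (mul_left_cancel₀ hc this)).symm

variable (P) [Finite E]

/-- the Clifford group -/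
def N : Subgroup (GL n F) where
  carrier := {g | ∀ u, ∃ v, P.Mp g u v}
  one_mem' u := ⟨u, mp_one u⟩
  mul_mem' ha hb u := by
    obtain ⟨v, k⟩ := hb u
    obtain ⟨x, k'⟩ := ha v
    exact ⟨x, k'.mul k⟩
  inv_mem' {a} ha u := by
    choose f hf using ha
    obtain ⟨v, rfl⟩ := Finite.surjective_of_injective (f := f) (fun x y e => (hf x).inj (e ▸ hf y)) u
    exact ⟨v, (hf v).inv⟩

variable {P}

theorem mem_N : g ∈ P.N ↔ ∀ u, ∃ v, P.Mp g u v := Iff.rfl

theorem mem_N_of_w (e : pj g = P.w x) : g ∈ P.N := fun u => ⟨u, mp_of_w e u⟩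

theorem W_mem (x : E) : P.W x ∈ P.N := mem_N_of_w rfl

theorem mem_N_of_pj (k : h ∈ P.N) (e : pj h = pj g) : g ∈ P.N := fun u => (k u).imp fun _ k => k.congr e

theorem exists_act (k : g ∈ P.N) : ∃ γ : E →ₗ[ZMod 3] E, ∀ u, P.Mp g u (γ u) := by
  choose f hf using k
  exact ⟨⟨⟨f, fun x y => (hf _).uniq ((hf x).add (hf y))⟩, fun a x => (hf _).uniq ((hf x).smul a)⟩, hf⟩

theorem exists_dual (l : E →ₗ[ZMod 3] ZMod 3) : ∃ a, ∀ u, P.B a u = l u := by
  haveI : Fact (Nat.Prime 3) := ⟨Nat.prime_three⟩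
  have hi : Function.Injective P.B := (injective_iff_map_eq_zero _).2 fun a e => by
    by_contra h
    obtain ⟨v, hv⟩ := P.nd a h
    exact hv (by simp [e])
  obtain ⟨a, e⟩ := (LinearMap.injective_iff_surjective_of_finrank_eq_finrank
    (Subspace.dual_finrank_eq (K := ZMod 3) (V := E)).symm).1 hi l
  exact ⟨a, fun u => by rw [e]⟩

theorem centE (k : ∀ u, P.Mp g u u) : ∃ a, pj g = P.w a := by
  choose l hl using fun u => (k u).ch
  have hadd : ∀ x y, l (x + y) = l x + l y := fun x y => by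
    have e1 : g.val * ((P.W x).val * (P.W y).val) = ch P.ω (l x + l y) • (P.W x * P.W y * g).val := by
      rw [← mul_assoc, hl, smul_mul_assoc, mul_assoc, hl, mul_smul_comm, smul_smul, ch_add P.hω, Units.val_mul,
        Units.val_mul, mul_assoc]
    rw [P.mul, mul_smul_comm, hl, smul_comm, ← smul_mul_assoc, ← P.mul, ← Units.val_mul, ← Units.val_mul] at e1
    exact ch_inj P.hω P.h3 (smul_cancel _ e1)
  obtain ⟨a, ha⟩ := exists_dual (P := P) ((AddMonoidHom.mk' l hadd).toZModLinearMap 3)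
  obtain ⟨c, e⟩ := P.cent ((P.W a).val * g.val) fun u => by
    have : P.B a u = l u := ha u
    rw [mul_assoc, hl, mul_smul_comm, ← mul_assoc, P.comm a u, smul_mul_assoc, smul_smul, this, ch_neg P.hω,
      one_smul, mul_assoc]
  refine ⟨-a, ?_⟩
  rw [w_neg, eq_inv_iff_mul_eq_one, ← mul_eq_one_comm, w, ← map_mul, pj_one]
  exact ⟨c, e⟩

end Wy

end H21.C3
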