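import Mathlib
import Cfsg.Agent.Base
import Cfsg.Agent.Lib.Cliff3.Wy

/-! Lifts of the symplectic transvections, transitivity on vectors and hyperbolic pairs. -/

set_option autoImplicit false
open Matrix Cfsg Cfsg.Geo

namespace H21.C3

variable {F : Type*} [Field F] {n : Type} [Fintype n] [DecidableEq n]

/-- the function with value `1` at `1` and `ω` at the other cube roots of one -/
def tm (ω : F) (A : Matrix n n F) : Matrix n n F := ((1 - ω) / 3) • (ω • 1 + A + A * A)

theorem tm_mul {ω : F} (hω : ω ^ 2 + ω + 1 = 0) (h3 : (3 : F) ≠ 0) {A : Matrix n n F} (h : A * (A * A) = 1) :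
    tm ω A * tm (ω ^ 2) A = 1 := by
  have h' : A * (A * (A * A)) = A := by rw [h, mul_one]
  simp only [tm, mul_add, add_mul, smul_mul_assoc, mul_smul_comm, one_mul, mul_one, mul_assoc, h, h', smul_add,
    smul_smul]
  match_scalars <;> field_simp
  · linear_combination (ω ^ 4 - 2 * ω ^ 3 + 5 * ω - 7) * hω
  · linear_combination (ω ^ 3 - ω ^ 2 - ω + 1) * hω
  · linear_combination (ω ^ 3 - ω ^ 2 - ω + 1) * hω

theorem tm_comm (ω ω' : F) (A : Matrix n n F) : tm ω A * tm ω' A = tm ω' A * tm ω A := by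
  simp only [tm, mul_add, add_mul, smul_mul_assoc, mul_smul_comm, one_mul, mul_one, mul_assoc, smul_add,
    smul_smul]
  module

theorem tm_conj (ω : F) {g A B : Matrix n n F} (h : g * A = B * g) : g * tm ω A = tm ω B * g := by
  simp only [tm, mul_add, add_mul, smul_mul_assoc, mul_smul_comm, one_mul, mul_one, ← mul_assoc, h]
  rw [mul_assoc B g, h, ← mul_assoc]

theorem tm_one {ω : F} (hω : ω ^ 2 + ω + 1 = 0) {A : Matrix n n F} (h : A * (A * A) = 1) :
    tm ω (ω • A) = ω • (A * A * tm ω A) := by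
  have h' : A * (A * (A * A)) = A := by rw [h, mul_one]
  simp only [tm, mul_add, smul_mul_assoc, mul_smul_comm, mul_one, mul_assoc, h, h', smul_add, smul_smul]
  match_scalars <;> ring

theorem tm_two {ω : F} (hω : ω ^ 2 + ω + 1 = 0) {A : Matrix n n F} (h : A * (A * A) = 1) :
    tm ω (ω ^ 2 • A) = ω • (A * tm ω A) := by
  simp only [tm, mul_add, smul_mul_assoc, mul_smul_comm, mul_one, mul_assoc, h, smul_add, smul_smul]
  match_scalars
  · ring
  · ring
  · linear_combination ((1 - ω) / 3 * ω) * cube hω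

theorem tm_poly {ω : F} (hω : ω ^ 2 + ω + 1 = 0) (h3 : (3 : F) ≠ 0) {A : Matrix n n F} (h : A * (A * A) = 1) :
    tm ω A * tm ω A = (1 + ω) • tm ω A - ω • 1 := by
  have h' : A * (A * (A * A)) = A := by rw [h, mul_one]
  simp only [tm, mul_add, add_mul, smul_mul_assoc, mul_smul_comm, one_mul, mul_one, mul_assoc, h, h', smul_add,
    smul_smul]
  match_scalars <;> field_simp
  · linear_combination (ω ^ 2 + 2) * hω
  · linear_combination (2 * ω - 2) * hω
  · linear_combination (2 * ω - 2) * hω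

namespace Wy

variable {E : Type} [AddCommGroup E] [Module (ZMod 3) E] (P : Wy F n E)

theorem W3 (a : E) : (P.W a).val * ((P.W a).val * (P.W a).val) = 1 := by
  have := congrArg Units.val (P.W_cube a)
  rwa [pow_succ', pow_two] at this

/-- lift of the transvection with centre `a` -/
def t (a : E) : GL n F :=
  ⟨tm P.ω (P.W a).val, tm (P.ω ^ 2) (P.W a).val, tm_mul P.hω P.h3 (P.W3 a),
    (tm_comm _ _ _).trans (tm_mul P.hω P.h3 (P.W3 a))⟩

theorem t_val (a : E) : (P.t a).val = tm P.ω (P.W a).val := rfl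

theorem t_inv (a : E) : ((P.t a)⁻¹).val = tm (P.ω ^ 2) (P.W a).val := rfl

theorem t_cube (a : E) : P.t a ^ 3 = 1 := Units.ext <| by
  have := tm_poly P.hω P.h3 (P.W3 a)
  rw [pow_succ, pow_two, Units.val_mul, Units.val_mul, t_val, this, sub_mul, smul_mul_assoc, this, smul_mul_assoc,
    one_mul, Units.val_one]
  match_scalars
  · linear_combination P.hω
  · linear_combination -P.hω

variable [Nonempty n]

theorem mp_t (a u : E) : P.Mp (P.t a) u (u + P.B a u • a) := by
  have hw : ∀ b : ZMod 3, ∃ c : F, (P.W u).val * (P.W (b • a)).val = c • (P.W (u + b • a)).val := fun b =>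
    ⟨_, P.mul _ _⟩
  have k := (tm_conj P.ω (g := (P.W u).val) (A := ch P.ω (-P.B a u) • (P.W a).val) (B := (P.W a).val)
    (by rw [P.comm a u, mul_smul_comm])).symm
  rw [mp_iff, t_val, k]
  obtain ⟨c, e⟩ := hw (P.B a u)
  rcases z3 (P.B a u) with h | h | h <;> rw [h] at e ⊢
  · exact ⟨1, by simp⟩
  · rw [show -(1 : ZMod 3) = 2 from rfl, ch_two, tm_two P.hω (P.W3 a), mul_smul_comm, ← mul_assoc]
    rw [one_smul] at e
    exact ⟨P.ω * c, by rw [e, one_smul, smul_mul_assoc, smul_smul]⟩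
  · rw [show -(2 : ZMod 3) = 1 from rfl, ch_one, tm_one P.hω (P.W3 a), mul_smul_comm, ← mul_assoc]
    rw [two_smul, P.W_add (P.alt a), Units.val_mul] at e
    exact ⟨P.ω * c, by rw [e, two_smul, smul_mul_assoc, smul_smul]⟩

variable {P} [Finite E]

theorem t_mem (a : E) : P.t a ∈ P.N := fun u => ⟨_, P.mp_t a u⟩

variable {Y : Subgroup (GL n F)}

theorem exists_step (hY : ∀ a, a ≠ 0 → P.t a ∈ Y) {u v : E} (h : P.B u v ≠ 0) :
    ∃ g ∈ Y ⊓ P.N, P.Mp g u v ∧ ∀ x, P.B (v - u) x = 0 → P.Mp g x x := by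
  have h0 : v - u ≠ 0 := fun e => h (by rw [sub_eq_zero.1 e, P.alt])
  have m : P.t (v - u) ∈ Y ⊓ P.N := ⟨hY _ h0, t_mem _⟩
  have e : P.B (v - u) u = P.B v u := by simp [P.alt]
  have f : ∀ x, P.B (v - u) x = 0 → P.Mp (P.t (v - u)) x x := fun x hx => by
    simpa only [hx, zero_smul, add_zero] using P.mp_t (v - u) x
  rcases z3 (P.B v u) with k | k | k
  · exact absurd (by rw [P.skew, k, neg_zero]) h
  · exact ⟨_, m, by simpa only [e, k, one_smul, add_sub_cancel] using P.mp_t (v - u) u, f⟩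
  · refine ⟨_, mul_mem m m, ?_, fun x hx => (f x hx).mul (f x hx)⟩
    have := (P.mp_t (v - u) _).mul (P.mp_t (v - u) u)
    rw [map_add, map_smul, P.alt, smul_zero, add_zero, e, k, add_assoc, ← add_smul,
      show (2 : ZMod 3) + 2 = 1 from rfl, one_smul, add_sub_cancel] at this
    exact this

theorem exists_vec (hY : ∀ a, a ≠ 0 → P.t a ∈ Y) {u v : E} (hu : u ≠ 0) (hv : v ≠ 0) :
    ∃ g ∈ Y ⊓ P.N, P.Mp g u v := by
  have : ∃ z, P.B u z ≠ 0 ∧ P.B v z ≠ 0 := by
    obtain ⟨x, hx⟩ := P.nd u hu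
    obtain ⟨y, hy⟩ := P.nd v hv
    by_cases h1 : P.B v x = 0
    · by_cases h2 : P.B u y = 0
      · exact ⟨x + y, by simpa [h2] using hx, by simpa [h1] using hy⟩
      · exact ⟨y, h2, hy⟩
    · exact ⟨x, hx, h1⟩
  obtain ⟨z, h1, h2⟩ := this
  obtain ⟨g, hg, k, -⟩ := exists_step hY h1
  obtain ⟨g', hg', k', -⟩ := exists_step hY h2
  exact ⟨_, mul_mem (inv_mem hg') hg, k'.inv.mul k⟩

theorem exists_pair (hY : ∀ a, a ≠ 0 → P.t a ∈ Y) {u v u' v' : E} (h : P.B u v = 1) (h' : P.B u' v' = 1) :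
    ∃ g ∈ Y ⊓ P.N, P.Mp g u u' ∧ P.Mp g v v' := by
  have key : ∀ x y, P.B u' x = 1 → P.B u' y = 1 → P.B x y ≠ 0 → ∃ g ∈ Y ⊓ P.N, P.Mp g u' u' ∧ P.Mp g x y :=
    fun x y hx hy k => by
      obtain ⟨g, hg, k1, k2⟩ := exists_step hY k
      exact ⟨g, hg, k2 _ (by rw [P.skew, map_sub, hx, hy, sub_self, neg_zero]), k1⟩
  obtain ⟨g, hg, k⟩ := exists_vec hY (u := u) (v := u') (by rintro rfl; simp at h) (by rintro rfl; simp at h')
  obtain ⟨x, kx⟩ := hg.2 v
  have hx : P.B u' x = 1 := (k.B_eq kx).trans h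
  by_cases c : P.B x v' = 0
  · obtain ⟨g1, h1, a1, b1⟩ := key x (x + u') hx (by simp [hx, P.alt])
      (by rw [map_add, P.alt, zero_add, P.skew, hx]; decide)
    obtain ⟨g2, h2, a2, b2⟩ := key (x + u') v' (by simp [hx, P.alt]) h'
      (by rw [map_add, LinearMap.add_apply, c, h']; decide)
    exact ⟨_, mul_mem h2 (mul_mem h1 hg), a2.mul (a1.mul k), b2.mul (b1.mul kx)⟩
  · obtain ⟨g1, h1, a1, b1⟩ := key x v' hx h' c
    exact ⟨_, mul_mem h1 hg, a1.mul k, b1.mul kx⟩

/-- an element of the Clifford group can be corrected to map `W u` exactly to `W v` -/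
theorem Mp.exact {g : GL n F} {u v : E} (k : P.Mp g u v) (hv : v ≠ 0) :
    ∃ b, P.W b * g * P.W u = P.W v * (P.W b * g) := by
  obtain ⟨a, e⟩ := k.ch
  obtain ⟨x, hx⟩ := P.exists_B hv
  refine ⟨(-a) • x, Units.ext ?_⟩
  simp only [Units.val_mul]
  rw [mul_assoc, e, mul_smul_comm, ← mul_assoc, P.comm, smul_mul_assoc, smul_smul, ← ch_add P.hω, ← P.skew,
    map_smul, hx, smul_eq_mul, mul_one, add_neg_cancel, ch_zero, one_smul, mul_assoc]

omit [Nonempty n] [Finite E] in
theorem t_conj {g : GL n F} {u v : E} (e : g * P.W u = P.W v * g) : g * P.t u = P.t v * g :=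
  Units.ext (tm_conj _ (congrArg Units.val e))

theorem det_t {u v : E} (hu : u ≠ 0) (hv : v ≠ 0) : (P.t u).val.det = (P.t v).val.det := by
  obtain ⟨g, -, k⟩ := exists_vec (P := P) (Y := ⊤) (fun _ _ => trivial) hu hv
  obtain ⟨b, e⟩ := k.exact hv
  have := congrArg (fun x : GL n F => x.val.det) (t_conj e)
  simp only [Units.val_mul (_ * g), Units.val_mul (P.t v), det_mul] at this
  rw [mul_comm] at this
  exact mul_right_cancel₀ (Matrix.isUnits_det_units _).ne_zero this

theorem det_W (h : 3 ∣ Fintype.card n) (u : E) : (P.W u).val.det = 1 := by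
  rcases eq_or_ne u 0 with rfl | hu
  · simp [P.W0]
  obtain ⟨c, hc⟩ := P.exists_B hu
  have k := P.mp_t u c
  rw [hc, one_smul] at k
  obtain ⟨a, e⟩ := k.ch
  have hd : ∀ b, ch P.ω b ^ Fintype.card n = 1 := fun b => by
    obtain ⟨m, e⟩ := h
    rw [e, pow_mul, ch_cube P.hω, one_pow]
  have e1 := congrArg det e
  have e2 := congrArg det (P.mul c u)
  rw [det_smul, hd, one_mul, det_mul] at e1 e2
  rw [det_mul, ← e2, mul_comm, mul_right_comm] at e1
  have n1 : (P.W c).val.det * (P.t u).val.det ≠ 0 :=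
    mul_ne_zero (Matrix.isUnits_det_units _).ne_zero (Matrix.isUnits_det_units _).ne_zero
  exact mul_left_cancel₀ n1 (by rw [← e1, mul_one])

end Wy

/-- compatibility of a Weyl system with the unitary structure -/
structure Wy.Cp {E : Type} [AddCommGroup E] [Module (ZMod 3) E] (P : Wy F n E) (u : Prop) (σ : F →+* F) :
    Prop where
  om : u → σ P.ω = P.ω ^ 2
  W : ∀ a, P.W a ∈ Un u σ n

namespace Wy.Cp

variable {E : Type} [AddCommGroup E] [Module (ZMod 3) E] {P : Wy F n E} {u : Prop} {σ : F →+* F}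

theorem t (h : P.Cp u σ) (a : E) : P.t a ∈ Un u σ n := fun hu => by
  have e : st σ (P.W a).val = (P.W a).val * (P.W a).val := by
    have := congrArg (· * ((P.W a).val * (P.W a).val)) (h.W a hu)
    simpa only [mul_assoc, P.W3, one_mul, mul_one] using this
  have : st σ (P.t a).val = ((P.t a)⁻¹).val := by
    rw [t_val, t_inv, tm, tm, st_smul, st_add, st_add, st_smul, st_mul, st_one, e, map_div₀, map_sub, map_one,
      h.om hu, map_ofNat, mul_assoc, P.W3, mul_one, add_right_comm]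
  rw [this, Units.inv_mul]

end Wy.Cp

end H21.C3
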