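import Mathlib
import Cfsg.Agent.Base
import Cfsg.Agent.Lib.Cliff3.Tv

/-! The standard Weyl systems; scalar, diagonal and permutation matrices. -/

set_option autoImplicit false
open Matrix Cfsg Cfsg.Geo

namespace H21.C3

variable {F : Type*} [Field F] {n : Type} [Fintype n] [DecidableEq n]

/-- diagonal matrices -/
def dg : (n → Fˣ) →* GL n F where
  toFun d := ⟨diagonal fun i => d i, diagonal fun i => (d i)⁻¹, by simp [diagonal_mul_diagonal],
    by simp [diagonal_mul_diagonal]⟩
  map_one' := Units.ext (by simp)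
  map_mul' a b := Units.ext (by simp [diagonal_mul_diagonal])

theorem dg_val (d : n → Fˣ) : (dg d).val = diagonal fun i => (d i : F) := rfl

theorem dg_const (c : Fˣ) : (dg fun _ : n => c).val = (c : F) • 1 := by
  rw [dg_val, smul_one_eq_diagonal]

theorem det_dg (d : n → Fˣ) : (dg d).val.det = ∏ i, (d i : F) := by rw [dg_val, det_diagonal]

theorem dg_Un {u : Prop} {σ : F →+* F} {d : n → Fˣ} : dg d ∈ Un u σ n ↔ (u → ∀ i, σ (d i) * d i = 1) := by
  refine imp_congr_right fun _ => ?_
  rw [dg_val, st, diagonal_map (map_zero σ), diagonal_transpose, diagonal_mul_diagonal, ← diagonal_one,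
    diagonal_eq_diagonal_iff]

/-- permutation matrices -/
def pm : Equiv.Perm n →* GL n F := (permMatrixHom (R := F)).toHomUnits

theorem pm_apply (π : Equiv.Perm n) (i j : n) : (pm π : GL n F).val i j = if i = π j then 1 else 0 := by
  have : (pm π : GL n F).val = π⁻¹.permMatrix F := rfl
  rw [this, Equiv.Perm.permMatrix, PEquiv.toMatrix_apply, Equiv.toPEquiv_apply]
  simp only [Option.mem_def, Option.some.injEq, Equiv.Perm.inv_eq_iff_eq]

theorem pm_mul_apply (π : Equiv.Perm n) (M : Matrix n n F) (i j : n) :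
    ((pm π : GL n F).val * M) i j = M (π⁻¹ i) j := by
  simp [mul_apply, pm_apply, ← Equiv.Perm.inv_eq_iff_eq]

theorem mul_pm_apply (π : Equiv.Perm n) (M : Matrix n n F) (i j : n) :
    (M * (pm π : GL n F).val) i j = M i (π j) := by
  simp [mul_apply, pm_apply]

theorem det_pm (π : Equiv.Perm n) : (pm π : GL n F).val.det = ((Equiv.Perm.sign π : ℤ) : F) := by
  have : (pm π : GL n F).val = π⁻¹.permMatrix F := rfl
  rw [this, det_permutation, Equiv.Perm.sign_inv]

theorem pm_Un {u : Prop} {σ : F →+* F} (π : Equiv.Perm n) : pm π ∈ Un u σ n := fun _ => by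
  ext i j
  rw [mul_pm_apply, st, transpose_apply, map_apply, pm_apply, one_apply]
  simp [eq_comm]

theorem pm_dg (π : Equiv.Perm n) (d : n → Fˣ) : pm π * dg d = dg (fun i => d (π⁻¹ i)) * pm π := by
  ext i j
  rw [Units.val_mul, Units.val_mul, pm_mul_apply, mul_pm_apply, dg_val, dg_val, diagonal_apply, diagonal_apply]
  simp only [Equiv.Perm.inv_eq_iff_eq]

theorem pm_dg' (π : Equiv.Perm n) (d : n → Fˣ) : pm π * dg d * (pm π)⁻¹ = dg (fun i => d (π⁻¹ i)) := by
  rw [pm_dg, mul_inv_cancel_right]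

theorem pj_dg_const [Nonempty n] (c : Fˣ) : pj (dg fun _ : n => c) = 1 := pj_one.2 ⟨_, dg_const c⟩

theorem exists_dg_const [Nonempty n] {g h : GL n F} (e : pj g = pj h) : ∃ c : Fˣ, g = dg (fun _ => c) * h := by
  obtain ⟨c, e⟩ := pj_eq.1 e
  exact ⟨Units.mk0 c (smul_ne e), Units.ext (by rw [Units.val_mul, dg_const, e]; simp)⟩

theorem dg_const_comm (c : Fˣ) (g : GL n F) : Commute (dg fun _ => c) g :=
  Units.ext (by simp [dg_const])

section std

variable {A : Type} [AddCommGroup A] [Module (ZMod 3) A] [Fintype A] [DecidableEq A]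
  (d : A →ₗ[ZMod 3] A →ₗ[ZMod 3] ZMod 3) {ω : F}

/-- the Weyl matrices -/
def Wm (ω : F) (v : A × A) : Matrix A A F := of fun i j => if i = j + v.2 then ch ω (d v.1 (j - v.2)) else 0

/-- the symplectic form -/
def Bs : A × A →ₗ[ZMod 3] A × A →ₗ[ZMod 3] ZMod 3 :=
  LinearMap.mk₂ (ZMod 3) (fun u v => d v.1 u.2 - d u.1 v.2) (fun _ _ _ => by simp; ring)
    (fun _ _ _ => by simp; ring) (fun _ _ _ => by simp; ring) (fun _ _ _ => by simp; ring)

omit [Fintype A] [DecidableEq A] in
theorem Bs_apply (u v : A × A) : Bs d u v = d v.1 u.2 - d u.1 v.2 := rfl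

theorem Wm_mul (hω : ω ^ 2 + ω + 1 = 0) (u v : A × A) :
    Wm d ω u * Wm d ω v = ch ω (Bs d u v) • Wm d ω (u + v) := by
  ext i j
  simp only [Wm, mul_apply, of_apply, mul_ite, mul_zero, Finset.sum_ite_eq', Finset.mem_univ, if_true,
    Matrix.smul_apply, smul_eq_mul, Prod.snd_add, Prod.fst_add, ite_mul, zero_mul, ← ch_add hω, Bs_apply]
  rw [add_assoc, add_comm v.2]
  congr 2
  simp only [map_add, map_sub, LinearMap.add_apply]
  linear_combination (d u.1 v.2) * (by decide : (3 : ZMod 3) = 0)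

omit [Fintype A] in
theorem Wm_zero : Wm d ω 0 = 1 := by
  ext i j
  simp [Wm, one_apply]

/-- the standard Weyl system -/
def std (hω : ω ^ 2 + ω + 1 = 0) (h3 : (3 : F) ≠ 0) (hs : ∀ a b, d a b = d b a)
    (hn : ∀ a, a ≠ 0 → ∃ b, d a b ≠ 0) : Wy F A (A × A) where
  ω := ω
  hω := hω
  h3 := h3
  B := Bs d
  alt u := by rw [Bs_apply, sub_self]
  nd u h := by
    by_cases h1 : u.1 = 0
    · obtain ⟨b, hb⟩ := hn u.2 fun e => h (Prod.ext h1 e)
      exact ⟨(b, 0), by simpa [Bs_apply, hs b] using hb⟩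
    · obtain ⟨b, hb⟩ := hn u.1 h1
      exact ⟨(0, b), by simpa [Bs_apply] using hb⟩
  W v := ⟨Wm d ω v, Wm d ω (-v), by rw [Wm_mul d hω, add_neg_cancel, Wm_zero]; simp [Bs_apply],
    by rw [Wm_mul d hω, neg_add_cancel, Wm_zero]; simp [Bs_apply]⟩
  W0 := Units.ext (Wm_zero d)
  mul := Wm_mul d hω
  cent M h := by
    refine ⟨M 0 0, Matrix.ext fun i j => ?_⟩
    by_cases e : i = j
    · have := congrFun (congrFun (h (0, i)) i) 0
      simp only [Wm, mul_apply, of_apply, map_zero, LinearMap.zero_apply, ch_zero, mul_ite, mul_one, mul_zero,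
        zero_add, Finset.sum_ite_eq', Finset.mem_univ, if_true, ite_mul, one_mul, zero_mul, right_eq_add] at this
      simp [← e, this]
    · obtain ⟨b, hb⟩ := hn (i - j) (sub_ne_zero.2 e)
      have := congrFun (congrFun (h (b, 0)) i) j
      simp only [Wm, mul_apply, of_apply, add_zero, sub_zero, mul_ite, mul_zero, Finset.sum_ite_eq',
        Finset.mem_univ, if_true, ite_mul, zero_mul, Finset.sum_ite_eq] at this
      rw [Matrix.smul_apply, one_apply_ne e, smul_zero]
      by_contra k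
      rw [mul_comm] at this
      have := ch_inj hω h3 (mul_right_cancel₀ k this)
      exact hb (by rw [hs, map_sub, this, sub_self])

variable {d} {hω : ω ^ 2 + ω + 1 = 0} {h3 : (3 : F) ≠ 0} {hs : ∀ a b, d a b = d b a}
    {hn : ∀ a, a ≠ 0 → ∃ b, d a b ≠ 0}

theorem std_W (v : A × A) (i j : A) :
    ((std d hω h3 hs hn).W v).val i j = if i = j + v.2 then ch ω (d v.1 (j - v.2)) else 0 := rfl

theorem map_ch {σ : F →+* F} (hω : ω ^ 2 + ω + 1 = 0) (h : σ ω = ω ^ 2) (a : ZMod 3) :
    σ (ch ω a) = ch ω (-a) := by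
  rw [← add_self3, ch_add hω, ch, map_pow, h, pow_two, mul_pow]

theorem std_cp {u : Prop} {σ : F →+* F} (h : u → σ ω = ω ^ 2) : (std d hω h3 hs hn).Cp u σ where
  om := h
  W v hu := by
    have : st σ ((std d hω h3 hs hn).W v).val = (((std d hω h3 hs hn).W v)⁻¹).val := by
      ext i j
      rw [← Wy.W_neg, st, transpose_apply, map_apply, std_W, std_W]
      by_cases e : j = i + v.2
      · rw [if_pos e, if_pos (by simp [e]), map_ch hω (h hu), e]
        simp only [Prod.fst_neg, Prod.snd_neg, map_neg, LinearMap.neg_apply, sub_neg_eq_add, add_assoc, add_self3]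
        rw [sub_eq_add_neg]
      · rw [if_neg e, if_neg (fun k => e (by simp [k])), map_zero]
    rw [this, Units.inv_mul]

theorem pm_W (π : Equiv.Perm A) (ha : ∀ a b, π (a + b) = π a + π b) (π' : A → A)
    (hd : ∀ a b, d (π' a) (π b) = d a b) (v : A × A) :
    pm π * (std d hω h3 hs hn).W v = (std d hω h3 hs hn).W (π' v.1, π v.2) * pm π := by
  ext i j
  have hb : ∀ a b, π (a - b) = π a - π b := fun a b => eq_sub_of_add_eq (by rw [← ha, sub_add_cancel])
  rw [Units.val_mul, Units.val_mul, pm_mul_apply, mul_pm_apply, std_W, std_W]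
  simp only [Equiv.Perm.inv_eq_iff_eq, ← ha, ← hb, hd]

theorem W_shift (b : A) : (std d hω h3 hs hn).W (0, b) = pm (Equiv.addRight b) := by
  ext i j
  rw [std_W, pm_apply, map_zero, LinearMap.zero_apply, ch_zero]; rfl

theorem W_diag (a : A) : (std d hω h3 hs hn).W (a, 0) = dg fun j => Units.mk0 _ (ch_ne hω (d a j)) := by
  ext i j
  by_cases e : i = j <;> simp [std_W, dg_val, e]

theorem dg_cube {e : A → Fˣ} (h : dg e ∈ (std d hω h3 hs hn).N) (i j : A) : (e i : F) ^ 3 = (e j : F) ^ 3 := by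
  obtain ⟨v, k⟩ := h (0, i - j)
  obtain ⟨a, k⟩ := k.ch
  have := congrFun (congrFun k i) j
  rw [dg_val, diagonal_mul, Matrix.smul_apply, mul_diagonal, std_W, std_W, if_pos (by simp)] at this
  simp only [map_zero, LinearMap.zero_apply, ch_zero, mul_one, smul_eq_mul] at this
  split_ifs at this with c
  · rw [this, mul_pow, mul_pow, ch_cube hω]
    erw [ch_cube hω]
    rw [one_mul, one_mul]
  · exact absurd (by simpa using this) (e i).ne_zero

end std

end H21.C3
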