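import Mathlib
import Cfsg.Agent.Base
import Cfsg.Agent.Lib.Cliff3.Std

/-! The Weyl systems in dimensions three and nine; block diagonal matrices. -/

set_option autoImplicit false
open Matrix Cfsg Cfsg.Geo

namespace H21.C3

variable {F : Type*} [Field F]

/-- the field with three elements -/
abbrev Z3 := ZMod 3
/-- the plane over it -/
abbrev I9 := Z3 × Z3

/-- a primitive cube root of one -/
structure Om (F : Type*) [Field F] where
  ω : F
  hω : ω ^ 2 + ω + 1 = 0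
  h3 : (3 : F) ≠ 0

/-- dot product -/
def d2 : I9 →ₗ[Z3] I9 →ₗ[Z3] Z3 :=
  LinearMap.mk₂ Z3 (fun a b => a.1 * b.1 + a.2 * b.2) (fun _ _ _ => by simp; ring)
    (fun _ _ _ => by simp; ring) (fun _ _ _ => by simp; ring) (fun _ _ _ => by simp; ring)

theorem d2_apply (a b : I9) : d2 a b = a.1 * b.1 + a.2 * b.2 := rfl

/-- block diagonal matrices -/
def bd : (Z3 → GL Z3 F) →* GL I9 F where
  toFun g := ⟨blockDiagonal fun x => (g x).val, blockDiagonal fun x => ((g x)⁻¹).val,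
    by rw [← blockDiagonal_mul]; simp [← Pi.one_def], by rw [← blockDiagonal_mul]; simp [← Pi.one_def]⟩
  map_one' := Units.ext (by simp [← Pi.one_def])
  map_mul' a b := Units.ext (by simp [← blockDiagonal_mul])

theorem bd_val (g : Z3 → GL Z3 F) : (bd g).val = blockDiagonal fun x => (g x).val := rfl

theorem bd_apply (g : Z3 → GL Z3 F) (i j : I9) :
    (bd g).val i j = if i.2 = j.2 then (g i.2).val i.1 j.1 else 0 := rfl

theorem det_bd (g : Z3 → GL Z3 F) : (bd g).val.det = (g 0).val.det * (g 1).val.det * (g 2).val.det := by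
  rw [bd_val, det_blockDiagonal]
  exact Fin.prod_univ_three _

theorem bd_Un {u : Prop} {σ : F →+* F} {g : Z3 → GL Z3 F} : bd g ∈ Un u σ I9 ↔ ∀ x, g x ∈ Un u σ Z3 := by
  rw [mem_Un, bd_val, st, blockDiagonal_map _ _ (map_zero σ), blockDiagonal_transpose, ← blockDiagonal_mul,
    ← blockDiagonal_one, blockDiagonal_inj, funext_iff, imp_forall_iff]
  rfl

theorem bd_dg (d : I9 → Fˣ) : bd (fun x => dg fun y => d (y, x)) = dg d := by
  ext ⟨i, k⟩ ⟨j, l⟩
  rw [bd_apply, dg_val, dg_val, diagonal_apply, diagonal_apply]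
  by_cases e : k = l <;> simp [e]

theorem bd_pm (f : Z3 → Equiv.Perm Z3) : bd (fun x => (pm (f x) : GL Z3 F)) = pm (Equiv.prodCongrLeft f) := by
  ext ⟨i, k⟩ ⟨j, l⟩
  rw [bd_apply, pm_apply, pm_apply]
  by_cases e : k = l <;> simp [e]

theorem pj_bd {g h : Z3 → GL Z3 F} {c : F} (e : ∀ x, (g x).val = c • (h x).val) : pj (bd g) = pj (bd h) :=
  pj_eq.2 ⟨c, by rw [bd_val, bd_val, ← blockDiagonal_smul]; exact congrArg _ (funext e)⟩

theorem sh_bd (c : Z3) (g : Z3 → GL Z3 F) :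
    pm (Equiv.addRight ((0, c) : I9)) * bd g * (pm (Equiv.addRight ((0, c) : I9)))⁻¹ = bd fun x => g (x - c) := by
  rw [mul_inv_eq_iff_eq_mul]
  ext ⟨i, k⟩ ⟨j, l⟩
  rw [Units.val_mul, Units.val_mul, pm_mul_apply, mul_pm_apply, bd_apply, bd_apply]
  simp [Equiv.Perm.inv_def, ← sub_eq_add_neg, sub_eq_iff_eq_add]

namespace Om

variable (o : Om F)

/-- the Weyl system in dimension three -/
def P1 : Wy F Z3 (Z3 × Z3) := std (LinearMap.mul Z3 Z3) o.hω o.h3 (fun a b => mul_comm a b)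
  fun a h => ⟨1, by simpa using h⟩

/-- the Weyl system in dimension nine -/
def P2 : Wy F I9 (I9 × I9) := std d2 o.hω o.h3 (fun a b => by simp [d2_apply, mul_comm])
  (by simp only [d2_apply]; decide)

theorem B1 (u v : Z3 × Z3) : o.P1.B u v = v.1 * u.2 - u.1 * v.2 := rfl

theorem B2 (u v : I9 × I9) :
    o.P2.B u v = v.1.1 * u.2.1 + v.1.2 * u.2.2 - (u.1.1 * v.2.1 + u.1.2 * v.2.2) := rfl

/-- the character as a unit -/
def cu (a : Z3) : Fˣ := Units.mk0 _ (ch_ne o.hω a)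

theorem W1_apply (v : Z3 × Z3) (i j : Z3) :
    (o.P1.W v).val i j = if i = j + v.2 then ch o.ω (v.1 * (j - v.2)) else 0 := rfl

theorem W2_apply (v : I9 × I9) (i j : I9) :
    (o.P2.W v).val i j = if i = j + v.2 then ch o.ω (d2 v.1 (j - v.2)) else 0 := rfl

theorem W2_bd (a b c : Z3) :
    o.P2.W ((a, c), (b, 0)) = bd fun x => dg (fun _ => o.cu (c * x)) * o.P1.W (a, b) := by
  ext ⟨i, k⟩ ⟨j, l⟩
  rw [bd_apply, W2_apply, Units.val_mul, dg_const, smul_mul_assoc, one_mul, Matrix.smul_apply, W1_apply]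
  by_cases e : k = l <;> simp [e, d2_apply, cu, ch_add o.hω, mul_comm]

theorem W2_sh (b : I9) : o.P2.W (0, b) = pm (Equiv.addRight b) := W_shift b

end Om

/-- the vectors acting on the first coordinate -/
def emb (v : Z3 × Z3) : I9 × I9 := ((v.1, 0), (v.2, 0))

/-- the vector of the block scalars -/
def ez : I9 × I9 := ((0, 1), (0, 0))

/-- the vector of the block shift -/
def ex : I9 × I9 := ((0, 0), (0, 1))

namespace Om

variable (o : Om F)

theorem W_emb (v : Z3 × Z3) : o.P2.W (emb v) = bd fun _ => o.P1.W v := by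
  rw [emb, W2_bd]
  simp [cu, ← Pi.one_def]

theorem W_ez : o.P2.W ez = bd fun x => dg fun _ => o.cu x := by
  rw [ez, W2_bd]
  simp [← Prod.zero_eq_mk, o.P1.W0]

theorem t_emb (v : Z3 × Z3) : o.P2.t (emb v) = bd fun _ => o.P1.t v := by
  refine Units.ext ?_
  rw [Wy.t_val, W_emb, bd_val, bd_val, tm, ← blockDiagonal_mul, ← blockDiagonal_one, ← blockDiagonal_smul,
    ← blockDiagonal_add, ← blockDiagonal_add, ← blockDiagonal_smul]
  rfl

variable {o}

theorem bd_comm_ez (g : Z3 → GL Z3 F) : bd g * o.P2.W ez = o.P2.W ez * bd g := by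
  rw [W_ez, ← map_mul, ← map_mul]
  exact congrArg _ (funext fun x => (dg_const_comm _ _).symm.eq)

theorem bd_mem {g : Z3 → GL Z3 F}
    (h1 : ∀ v, ∃ v' c s, ∀ x, (g x).val * (o.P1.W v).val = (c * ch o.ω (s * x)) • ((o.P1.W v').val * (g x).val))
    (h2 : ∃ v c s, ∀ x, (g (x + 1)).val = (c * ch o.ω (s * x)) • ((o.P1.W v).val * (g x).val)) :
    bd g ∈ o.P2.N := fun u => by
  have key : ∀ (h : Z3 → GL Z3 F) (v : Z3 × Z3) c s,
      (∀ x, (h x).val = (c * ch o.ω (s * x)) • ((o.P1.W v).val * (g x).val)) →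
      pj (bd h) = o.P2.w ((v.1, s), (v.2, 0)) * pj (bd g) := fun h v c s e => by
    rw [Wy.w, W2_bd, ← map_mul, ← map_mul]
    refine pj_bd (c := c) fun x => ?_
    simp [e, dg_const, cu, mul_smul]
  obtain ⟨v', c, s, k1⟩ := h1 (u.1.1, u.2.1)
  obtain ⟨v, c', s', k2⟩ := h2
  have e1 : o.P2.Mp (bd g) (emb (u.1.1, u.2.1)) ((v'.1, s), (v'.2, 0)) := by
    rw [Wy.Mp, mul_inv_eq_iff_eq_mul, Wy.w, W_emb, ← map_mul, ← map_mul]
    exact key _ _ _ _ k1
  have e2 : o.P2.Mp (bd g) ex (ex + ((v.1, s'), (v.2, 0))) := by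
    rw [Wy.Mp, mul_inv_eq_iff_eq_mul, Wy.w_add, mul_assoc, ← key _ _ _ _ k2, Wy.w, ← map_mul, ← map_mul]
    have := sh_bd 1 fun x => g (x + 1)
    simp only [sub_add_cancel] at this
    rw [ex, ← Prod.zero_eq_mk, W2_sh, ← this, inv_mul_cancel_right]
  have e3 := (e1.add ((Wy.mp_of_eq (bd_comm_ez g)).smul u.1.2)).add (e2.smul u.2.2)
  rw [show emb (u.1.1, u.2.1) + u.1.2 • ez + u.2.2 • ex = u by ext <;> simp [emb, ez, ex]] at e3
  exact ⟨_, e3⟩

theorem const_mem {c : GL Z3 F} (h : c ∈ o.P1.N) : bd (fun _ => c) ∈ o.P2.N :=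
  bd_mem (fun v => by
    obtain ⟨v', k⟩ := h v
    obtain ⟨a, k⟩ := Wy.mp_iff.1 k
    exact ⟨v', a, 0, fun x => by simpa using k⟩) ⟨0, 1, 0, fun x => by simp [o.P1.W0]⟩

theorem cw_mem (a b : Z3 × Z3) : bd (fun x => o.P1.W (a + x • b)) ∈ o.P2.N :=
  bd_mem (fun v => ⟨v, ch o.ω (-o.P1.B a v), -o.P1.B b v, fun x => by
      rw [o.P1.comm, ← ch_add o.hω]
      congr 2
      simp only [map_add, map_smul, LinearMap.add_apply, LinearMap.smul_apply, smul_eq_mul]
      ring⟩)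
    ⟨b, ch o.ω (-o.P1.B b a), 0, fun x => by
      rw [o.P1.mul, smul_smul, map_add, map_smul, o.P1.alt, zero_mul, ch_zero, mul_one, smul_zero, add_zero]
      erw [mul_comm, ch_neg o.hω]
      rw [one_smul, add_smul, one_smul, add_comm b, add_assoc]⟩

theorem sc_mem (f : Z3 → Z3) : bd (fun x => dg fun _ => o.cu (f x)) ∈ o.P2.N :=
  bd_mem (fun v => ⟨v, 1, 0, fun x => by simp [dg_const]⟩) <| by
    obtain ⟨c, s, e⟩ : ∃ c s, ∀ x, f (x + 1) = c + s * x + f x := by revert f; decide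
    exact ⟨0, ch o.ω c, s, fun x => by simp [dg_const, o.P1.W0, cu, e, ch_add o.hω, smul_smul]⟩

theorem exists_bd {g : GL I9 F} (h : g * o.P2.W ez = o.P2.W ez * g) : ∃ f, g = bd f := by
  have e : g.val = blockDiagonal (blockDiag g.val) := by
    ext ⟨i, k⟩ ⟨j, l⟩
    rw [blockDiagonal_apply', blockDiag_apply]
    split_ifs with c
    · rw [c]
    have := congrArg (fun x : GL I9 F => x.val (i, k) (j, l)) h
    rw [W_ez, bd_dg fun p => o.cu p.2, Units.val_mul, Units.val_mul, dg_val, mul_diagonal, diagonal_mul,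
      mul_comm] at this
    by_contra k
    exact c (ch_inj o.hω o.h3 (mul_right_cancel₀ k this)).symm
  have hd : ∀ x, (blockDiag g.val x).det ≠ 0 := fun x k => by
    have := (Matrix.isUnits_det_units g).ne_zero
    rw [e, det_blockDiagonal] at this
    exact this (Finset.prod_eq_zero (Finset.mem_univ x) k)
  exact ⟨fun x => GeneralLinearGroup.mkOfDetNeZero _ (hd x), Units.ext e⟩

variable {u : Prop} {σ : F →+* F}

theorem cp1 (h : u → σ o.ω = o.ω ^ 2) : o.P1.Cp u σ := std_cp h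

theorem cp2 (h : u → σ o.ω = o.ω ^ 2) : o.P2.Cp u σ := std_cp h

theorem cu_un (h : u → σ o.ω = o.ω ^ 2) (hu : u) (a : Z3) : σ (o.cu a) * o.cu a = 1 := by
  erw [map_ch o.hω (h hu), mul_comm, ch_neg o.hω]

theorem det_W1 (v : Z3 × Z3) : (o.P1.W v).val.det = 1 := Wy.det_W (by decide) v

theorem det_t1 (v : Z3 × Z3) : (o.P1.t v).val.det ^ 3 = 1 := by
  rw [← det_pow, ← Units.val_pow_eq_pow_val, Wy.t_cube, Units.val_one, det_one]

theorem det_t2 {v : I9 × I9} (h : v ≠ 0) : (o.P2.t v).val.det = 1 := by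
  rw [Wy.det_t h (v := emb (1, 0)) (by decide), t_emb, det_bd, ← det_t1 (o := o) (1, 0)]
  ring

theorem t_diag {A : Type} [AddCommGroup A] [Module (ZMod 3) A] [Fintype A] [DecidableEq A]
    {d : A →ₗ[ZMod 3] A →ₗ[ZMod 3] ZMod 3} {hs : ∀ a b, d a b = d b a} {hn : ∀ a, a ≠ 0 → ∃ b, d a b ≠ 0} (a : A) :
    (std d o.hω o.h3 hs hn).t (a, 0) = dg fun j => o.cu (d a j ^ 2) := by
  refine Units.ext ?_
  rw [Wy.t_val, W_diag, dg_val, dg_val, tm, diagonal_mul_diagonal, smul_one_eq_diagonal, diagonal_add, diagonal_add,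
    ← diagonal_smul]
  refine congrArg _ (funext fun j => ?_)
  change (1 - o.ω) / 3 * (o.ω + ch o.ω _ + ch o.ω _ * ch o.ω _) = ch o.ω _
  rw [div_mul_eq_mul_div, div_eq_iff o.h3]
  rcases z3 (d a j) with h | h | h <;> rw [h]
  · rw [show (0 : Z3) ^ 2 = 0 from rfl, ch_zero]; linear_combination -o.hω
  · rw [show (1 : Z3) ^ 2 = 1 from rfl, ch_one]; linear_combination -o.ω * o.hω
  · rw [show (2 : Z3) ^ 2 = 1 from rfl, ch_one, ch_two]
    linear_combination (-o.ω ^ 3 + 2 * o.ω ^ 2 - 2 * o.ω) * o.hω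

end Om

end H21.C3
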