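import Mathlib
import Cfsg.Agent.Base
import Cfsg.Agent.Lib.Cliff3.Blk

/-! Overgroups of the Clifford group in dimension nine: setting, explicit elements, monomial matrices. -/

set_option autoImplicit false
open Matrix Cfsg Cfsg.Geo
open scoped commutatorElement

namespace H21.C3

variable {F : Type*} [Field F]

/-- what is known about overgroups of the Clifford group in dimension three -/
def Base (o : Om F) (u : Prop) (σ : F →+* F) : Prop :=
  ∀ Y : Subgroup (GL Z3 F), Y ≤ Un u σ Z3 → (∀ a, o.P1.W a ∈ Y) → (∀ a, a ≠ 0 → o.P1.t a ∈ Y) →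
    Y ≤ o.P1.N ∨ ((2 : F) ≠ 0 ∧ GG u σ Z3 ≤ Y ∧ ∀ M ≤ GG u σ Z3, (∀ y ∈ Y, ∀ m ∈ M, y * m * y⁻¹ ∈ M) →
      M ≤ scalars Z3 F ∨ M = GG u σ Z3)

/-- an overgroup of the Clifford group which does not contain the monomial group -/
structure Cx (o : Om F) (u : Prop) (σ : F →+* F) (X : Subgroup (GL I9 F)) : Prop where
  om : u → σ o.ω = o.ω ^ 2
  two : (2 : F) = 0 → ∀ c : Fˣ, (u → σ c * c = 1) → (c : F) ^ 3 = 1
  base : Base o u σ
  nmon : ¬ ∀ π d, pm π * dg d ∈ GG u σ I9 → pm π * dg d ∈ X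
  le : o.P2.N ⊓ GG u σ I9 ≤ X
  le' : X ≤ GG u σ I9

/-- minus one -/
def ng (n : Type) [Fintype n] [DecidableEq n] (F : Type*) [Field F] : GL n F := dg fun _ => -1

theorem ng_val {n : Type} [Fintype n] [DecidableEq n] : (ng n F).val = -1 := by simp [ng, dg_const]

theorem ng_Un {n : Type} [Fintype n] [DecidableEq n] {u : Prop} {σ : F →+* F} : ng n F ∈ Un u σ n :=
  dg_Un.2 fun _ _ => by simp

theorem ng_comm {n : Type} [Fintype n] [DecidableEq n] (g : GL n F) : Commute (ng n F) g := dg_const_comm _ g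

theorem pj_ng {n : Type} [Fintype n] [DecidableEq n] [Nonempty n] (g : GL n F) : pj (ng n F * g) = pj g := by
  rw [map_mul, ng, pj_dg_const, one_mul]

/-- exchange of the coordinates -/
def sw : Equiv.Perm I9 := Equiv.prodComm _ _

/-- reflection of the second coordinate -/
def px : Equiv.Perm I9 := Equiv.prodCongr (Equiv.refl _) (Equiv.neg _)

/-- elements acting diagonally -/
def Y0 (X : Subgroup (GL I9 F)) : Subgroup (GL Z3 F) := X.comap (bd.comp (Pi.constMonoidHom _ _))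

/-- elements acting on the first block only -/
def M0 (X : Subgroup (GL I9 F)) : Subgroup (GL Z3 F) :=
  X.comap (bd.comp (MonoidHom.mulSingle (fun _ => GL Z3 F) 0))

/-- patterns of the monomial elements -/
def Pt (X : Subgroup (GL I9 F)) : Subgroup (Equiv.Perm I9) where
  carrier := {π | ∃ e, pm π * dg e ∈ X}
  one_mem' := ⟨1, by simp⟩
  mul_mem' {a b} := fun ⟨e, h⟩ ⟨e', h'⟩ => ⟨(fun i => e (b i) : I9 → Fˣ) * e', by
    have := pm_dg b fun i => e (b i)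
    simp only [Equiv.Perm.coe_inv, Equiv.apply_symm_apply] at this
    rw [map_mul, map_mul, mul_assoc, ← mul_assoc (pm b), this, mul_assoc, ← mul_assoc]
    exact mul_mem h h'⟩
  inv_mem' {a} := fun ⟨e, h⟩ => ⟨fun i => e⁻¹ (a⁻¹ i), by
    rw [← pm_dg', map_inv, ← mul_assoc, ← mul_assoc, inv_mul_cancel, one_mul, map_inv, ← _root_.mul_inv_rev]
    exact inv_mem h⟩

variable {o : Om F} {u : Prop} {σ : F →+* F} {X : Subgroup (GL I9 F)}

theorem mem_Y0 {c : GL Z3 F} : c ∈ Y0 X ↔ bd (fun _ => c) ∈ X := Iff.rfl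

theorem mem_M0 {c : GL Z3 F} : c ∈ M0 X ↔ bd (Pi.mulSingle 0 c) ∈ X := Iff.rfl

theorem Pt_conj {π : Equiv.Perm I9} (h : π ∈ Pt X) {d : I9 → Fˣ} (k : dg d ∈ X) : dg (fun i => d (π⁻¹ i)) ∈ X := by
  obtain ⟨e, h⟩ := h
  have := mul_mem (mul_mem h k) (inv_mem h)
  rwa [mul_assoc (pm π), ← map_mul, mul_comm e, map_mul, _root_.mul_inv_rev, ← mul_assoc, ← mul_assoc,
    mul_inv_cancel_right, pm_dg'] at this

theorem M0_conj {g : Z3 → GL Z3 F} (h : bd g ∈ X) {m : GL Z3 F} (k : m ∈ M0 X) : g 0 * m * (g 0)⁻¹ ∈ M0 X := by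
  have := mul_mem (mul_mem h (mem_M0.1 k)) (inv_mem h)
  rw [← map_inv, ← map_mul, ← map_mul] at this
  refine (congrArg (bd · ∈ X) (funext fun x => ?_)).mp this
  by_cases e : x = 0 <;> simp [e]

theorem M0_comm {g g' : Z3 → GL Z3 F} (h : bd g ∈ X) (h' : bd g' ∈ X) (e : g 1 = 1) (e' : g' 2 = 1) :
    ⁅g 0, g' 0⁆ ∈ M0 X := by
  have := mul_mem (mul_mem (mul_mem h h') (inv_mem h)) (inv_mem h')
  rw [← map_inv, ← map_inv, ← map_mul, ← map_mul, ← map_mul] at this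
  refine mem_M0.2 ((congrArg (bd · ∈ X) (funext fun x => ?_)).mp this)
  rcases z3 x with rfl | rfl | rfl
  · simp [commutatorElement_def]
  · simp [e]
  · rw [Pi.mulSingle_eq_of_ne (by decide : (2 : Z3) ≠ 0)]; simp [e']

theorem rel_all {R : I9 → I9 → Prop} (h0 : ∀ a, R a a) (h1 : ∀ a b c, R a b → R b c → R a c)
    (h2 : R (1, 0) (2, 0)) (h3 : ∀ a b c, R a b → R (a + c) (b + c)) (h4 : ∀ a b, R a b → R a.swap b.swap)
    (a b : I9) : R a b := by
  have k1 : ∀ a, R a (a + (1, 0)) := fun a => by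
    have := h3 _ _ (a - (1, 0)) h2
    rwa [add_sub_cancel, (by decide : ∀ a : I9, ((2, 0) : I9) + (a - (1, 0)) = a + (1, 0))] at this
  have k2 : ∀ a, R a (a + (0, 1)) := fun a => h4 _ _ (k1 a.swap)
  have k3 : ∀ e, (∀ a, R a (a + e)) → ∀ (i : Z3) a, R a (a + i • e) := fun e h i a => by
    rcases z3 i with rfl | rfl | rfl
    · simpa using h0 a
    · simpa using h a
    · rw [two_smul, ← add_assoc]; exact h1 _ _ _ (h a) (h _)
  have := h1 _ _ _ (k3 _ k1 (b.1 - a.1) a) (k3 _ k2 (b.2 - a.2) _)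
  rwa [show a + (b.1 - a.1) • ((1, 0) : I9) + (b.2 - a.2) • ((0, 1) : I9) = b by ext <;> simp] at this

theorem mp_pm (π : Equiv.Perm I9) (ha : ∀ a b, π (a + b) = π a + π b) (hd : ∀ a b, d2 (π a) (π b) = d2 a b)
    (v : I9 × I9) : pm π * o.P2.W v = o.P2.W (π v.1, π v.2) * pm π := pm_W π ha π hd v

theorem sw_W (v : I9 × I9) : pm sw * o.P2.W v = o.P2.W (v.1.swap, v.2.swap) * pm sw :=
  mp_pm sw (fun _ _ => rfl) (fun a b => by simp [d2_apply, sw, add_comm]) v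

theorem px_W (v : I9 × I9) : pm px * o.P2.W v = o.P2.W ((v.1.1, -v.1.2), (v.2.1, -v.2.2)) * pm px :=
  mp_pm px (fun a b => by simp [px, Prod.map, add_comm]) (fun a b => by simp [d2_apply, px]) v

theorem neg_W (v : I9 × I9) : pm (Equiv.neg I9) * o.P2.W v = o.P2.W (-v) * pm (Equiv.neg I9) :=
  mp_pm (Equiv.neg I9) (fun a b => by simp [add_comm]) (fun a b => by simp) v

theorem neg_W1 (v : Z3 × Z3) : pm (Equiv.neg Z3) * o.P1.W v = o.P1.W (-v) * pm (Equiv.neg Z3) :=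
  pm_W (Equiv.neg Z3) (fun a b => by simp [add_comm]) (Equiv.neg Z3) (fun a b => by simp) v

theorem ng_pm_GG {n : Type} [Fintype n] [DecidableEq n] (h : Odd (Fintype.card n)) {π : Equiv.Perm n}
    (k : Equiv.Perm.sign π = -1) : ng n F * pm π ∈ GG u σ n :=
  mem_GG.2 ⟨mul_mem ng_Un (pm_Un π), by simp [ng_val, det_neg, det_pm, k, h.neg_one_pow]⟩

namespace Cx

variable (h : Cx o u σ X)
include h

theorem mem {g : GL I9 F} (h1 : g ∈ o.P2.N) (h2 : g ∈ Un u σ I9) (h3 : g.val.det = 1) : g ∈ X :=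
  h.le ⟨h1, mem_GG.2 ⟨h2, h3⟩⟩

theorem W_mem (v : I9 × I9) : o.P2.W v ∈ X :=
  h.mem (Wy.W_mem v) ((Om.cp2 h.om).W v) (Wy.det_W (by decide) v)

theorem t_mem (v : I9 × I9) (hv : v ≠ 0) : o.P2.t v ∈ X :=
  h.mem (Wy.t_mem v) ((Om.cp2 h.om).t v) (Om.det_t2 hv)

theorem cw_mem (a b : Z3 × Z3) : bd (fun x => o.P1.W (a + x • b)) ∈ X :=
  h.mem (Om.cw_mem a b) (bd_Un.2 fun _ => (Om.cp1 h.om).W _) (by simp [det_bd, Om.det_W1])

theorem sc_mem (f : Z3 → Z3) : bd (fun x => dg fun _ => o.cu (f x)) ∈ X :=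
  h.mem (Om.sc_mem f) (bd_Un.2 fun _ => dg_Un.2 fun hu _ => Om.cu_un h.om hu _)
    (by simp [det_bd, det_dg, Om.cu, ch_cube o.hω])

theorem sh_mem (b : I9) : pm (Equiv.addRight b) ∈ X := o.W2_sh b ▸ h.W_mem _

theorem sw_mem : ng I9 F * pm sw ∈ X :=
  h.le ⟨Wy.mem_N_of_pj (fun v => ⟨_, Wy.mp_of_eq (sw_W v)⟩) (pj_ng _).symm, ng_pm_GG (by decide) (by decide)⟩

theorem px_mem : ng I9 F * pm px ∈ X :=
  h.le ⟨Wy.mem_N_of_pj (fun v => ⟨_, Wy.mp_of_eq (px_W v)⟩) (pj_ng _).symm, ng_pm_GG (by decide) (by decide)⟩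

theorem neg_mem : pm (Equiv.neg I9) ∈ X :=
  h.mem (fun v => ⟨_, Wy.mp_of_eq (neg_W v)⟩) (pm_Un _)
    (by rw [det_pm, show Equiv.Perm.sign (Equiv.neg I9) = 1 by decide]; simp)

theorem sh_Pt (b : I9) : Equiv.addRight b ∈ Pt X := ⟨1, by simpa using h.sh_mem b⟩

theorem sw_Pt : sw ∈ Pt X := ⟨fun _ => -1, by rw [← (dg_const_comm _ _).eq]; exact h.sw_mem⟩

theorem shift {g : Z3 → GL Z3 F} (k : bd g ∈ X) (c : Z3) : bd (fun x => g (x - c)) ∈ X :=
  sh_bd c g ▸ mul_mem (mul_mem (h.sh_mem _) k) (inv_mem (h.sh_mem _))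

theorem W_Y0 (a : Z3 × Z3) : o.P1.W a ∈ Y0 X := mem_Y0.2 (o.W_emb a ▸ h.W_mem _)

theorem t_Y0 (a : Z3 × Z3) (ha : a ≠ 0) : o.P1.t a ∈ Y0 X :=
  mem_Y0.2 (o.t_emb a ▸ h.t_mem _ (by revert a; decide))

theorem strip {z y : GL I9 F} (k : z * y ∈ X) (hz : z ∈ o.P2.N) (hy : y ∈ GG u σ I9) : y ∈ X :=
  (mul_mem_cancel_left (h.le ⟨hz, (mul_mem_cancel_right hy).1 (h.le' k)⟩)).1 k

theorem M0_le : M0 X ≤ GG u σ Z3 := fun m k => by
  obtain ⟨h1, h2⟩ := mem_GG.1 (h.le' (mem_M0.1 k))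
  rw [det_bd, Pi.mulSingle_eq_of_ne (by decide : (2 : Z3) ≠ 0)] at h2
  exact mem_GG.2 ⟨by simpa using bd_Un.1 h1 0, by simpa using h2⟩

theorem exists_const {c : GL Z3 F} (k : c ∈ o.P1.N) : ∃ c₀ ∈ Y0 X, pj c₀ = pj c := by
  obtain ⟨e, he⟩ := k (1, 0)
  obtain ⟨f, hf⟩ := k (0, 1)
  obtain ⟨g, hg, k1, k2⟩ := Wy.exists_pair h.t_Y0 (u := (0, 1)) (v := (1, 0)) (by rw [Om.B1]; decide)
    ((hf.B_eq he).trans (by rw [Om.B1]; decide))
  obtain ⟨a, e⟩ := Wy.centE (P := o.P1) (g := g⁻¹ * c) fun v => by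
    simpa using ((k2.inv.mul he).smul v.1).add ((k1.inv.mul hf).smul v.2)
  exact ⟨g * o.P1.W a, mul_mem hg.1 (h.W_Y0 a), by
    rw [map_mul, ← Wy.w, ← e, ← map_mul, mul_inv_cancel_left]⟩

theorem mon (hd : ∀ c : Fˣ, (u → σ c * c = 1) → dg (Pi.mulSingle 1 c * Pi.mulSingle 2 c⁻¹) ∈ M0 X)
    (hs : ng Z3 F * pm (Equiv.neg Z3) ∈ M0 X) : False := by
  have s0 : Equiv.swap (1, 0) (2, 0) ∈ Pt X := ⟨fun p => if p.2 = 0 then -1 else 1, by
    rw [show Equiv.swap ((1, 0) : I9) (2, 0) = Equiv.prodCongrLeft (Pi.mulSingle (0 : Z3) (Equiv.neg Z3)) by decide,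
      ← bd_pm, ← bd_dg, ← map_mul]
    refine (congrArg (bd · ∈ X) (funext fun x => ?_)).mp (mem_M0.1 hs)
    by_cases e : x = 0
    · simp [e, ng, (dg_const_comm _ _).eq]
    · simp [e, ← Pi.one_def]⟩
  have s1 : ∀ a b, Equiv.swap a b ∈ Pt X := rel_all (R := fun a b => Equiv.swap a b ∈ Pt X)
    (fun a => by rw [Equiv.swap_self]; exact one_mem _) (fun a b c => SubmonoidClass.swap_mem_trans _) s0
    (fun a b c k => by
      have := mul_mem (mul_mem (h.sh_Pt c) k) (inv_mem (h.sh_Pt c))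
      rwa [← Equiv.swap_apply_apply] at this)
    (fun a b k => by
      have := mul_mem (mul_mem h.sw_Pt k) (inv_mem h.sw_Pt)
      rwa [← Equiv.swap_apply_apply] at this)
  have s2 : ∀ π, π ∈ Pt X := fun π => by
    induction π using Equiv.Perm.swap_induction_on with
    | one => exact one_mem _
    | swap_mul f x y _ k => exact mul_mem (s1 x y) k
  have cj : ∀ (π : Equiv.Perm I9) a b (c : Fˣ), dg (Pi.mulSingle a c * Pi.mulSingle b c⁻¹) ∈ X →
      dg (Pi.mulSingle (π a) c * Pi.mulSingle (π b) c⁻¹) ∈ X := fun π a b c k => by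
    refine (congrArg (dg · ∈ X) (funext fun i => ?_)).mp (Pt_conj (s2 π) k)
    simp only [Pi.mul_apply, Pi.mulSingle_apply, Equiv.Perm.inv_eq_iff_eq]
  have d1 : ∀ a b, ∀ c : Fˣ, (u → σ c * c = 1) → dg (Pi.mulSingle a c * Pi.mulSingle b c⁻¹) ∈ X :=
    rel_all (R := fun a b => ∀ c : Fˣ, (u → σ c * c = 1) → dg (Pi.mulSingle a c * Pi.mulSingle b c⁻¹) ∈ X)
      (fun a c _ => by rw [← Pi.mulSingle_mul, mul_inv_cancel, Pi.mulSingle_one, map_one]; exact one_mem _)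
      (fun a b z k k' c hc => by
        have := mul_mem (k c hc) (k' c hc)
        rwa [← map_mul, mul_assoc, ← mul_assoc (Pi.mulSingle b c⁻¹ : I9 → Fˣ), ← Pi.mulSingle_mul, inv_mul_cancel,
          Pi.mulSingle_one, one_mul] at this)
      (fun c hc => by
        rw [← bd_dg]
        refine (congrArg (bd · ∈ X) (funext fun x => ?_)).mp (mem_M0.1 (hd c hc))
        by_cases e : x = 0
        · rw [e, Pi.mulSingle_eq_same]
          exact congrArg dg (funext fun y => by simp [Pi.mulSingle_apply])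
        · simp [e, ← Pi.one_def])
      (fun a b c k x hx => cj (Equiv.addRight c) a b x (k x hx)) fun a b k x hx => cj sw a b x (k x hx)
  have d2 : ∀ d, dg d ∈ GG u σ I9 → dg d ∈ X := fun d k => by
    obtain ⟨k1, k2⟩ := mem_GG.1 k
    have := (X.comap dg).prod_mem (t := Finset.univ) fun a _ => d1 a 0 (d a) fun hu => dg_Un.1 k1 hu a
    rw [Finset.prod_mul_distrib, Finset.univ_prod_mulSingle] at this
    have e : ∏ a, Pi.mulSingle (0 : I9) (d a)⁻¹ = (1 : I9 → Fˣ) := by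
      rw [det_dg, ← Units.coe_prod, Units.val_eq_one] at k2
      rw [← Pi.mulSingle_one 0, ← inv_one, ← k2, ← Finset.prod_inv_distrib]
      exact (map_prod (MonoidHom.mulSingle (fun _ : I9 => Fˣ) 0) _ _).symm
    rwa [e, mul_one] at this
  refine h.nmon fun π d k => ?_
  obtain ⟨e, he⟩ := s2 π
  have := d2 (e⁻¹ * d) (by
    have := mul_mem (inv_mem (h.le' he)) k
    rwa [_root_.mul_inv_rev, mul_assoc, inv_mul_cancel_left, ← map_inv, ← map_mul] at this)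
  have := mul_mem he this
  rwa [mul_assoc, ← map_mul, mul_inv_cancel_left] at this

end Cx

end H21.C3
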