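import Mathlib
import Cfsg.Agent.Base
import Cfsg.Agent.Lib.Cliff3.Mon

/-! Overgroups of the Clifford group in dimension nine: centralisers of the Weyl matrices. -/

set_option autoImplicit false
open Matrix Cfsg Cfsg.Geo
open scoped commutatorElement

namespace H21.C3

variable {F : Type*} [Field F] {o : Om F} {u : Prop} {σ : F →+* F} {X : Subgroup (GL I9 F)}

theorem comm_mon {n : Type} [Fintype n] [DecidableEq n] {a b : Equiv.Perm n} (h : Commute a b) (e f : n → Fˣ) :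
    ⁅dg e * pm a, dg f * pm b⁆ = dg fun i => e i * f (a⁻¹ i) * (e (b⁻¹ i))⁻¹ * (f i)⁻¹ := by
  have k : ∀ (a b : Equiv.Perm n) (e f : n → Fˣ), dg e * pm a * (dg f * pm b) =
      dg (e * fun i => f (a⁻¹ i)) * pm (a * b) := fun a b e f => by
    rw [mul_assoc, ← mul_assoc (pm a), pm_dg, map_mul, map_mul, mul_assoc, mul_assoc]
  rw [commutatorElement_def, mul_assoc, ← _root_.mul_inv_rev, k, k, h.eq, _root_.mul_inv_rev, mul_assoc,
    mul_inv_cancel_left, ← map_inv, ← map_mul]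
  exact congrArg dg (funext fun i => by simp [mul_assoc])

theorem conj_mon {n : Type} [Fintype n] [DecidableEq n] (a b : Equiv.Perm n) (e : n → Fˣ) :
    ng n F * pm a * (dg e * pm b) * (ng n F * pm a)⁻¹ = dg (fun i => e (a⁻¹ i)) * pm (a * b * a⁻¹) := by
  rw [mul_assoc (ng n F), mul_assoc (ng n F), ng, (dg_const_comm _ _).eq, _root_.mul_inv_rev, ← pm_dg', map_mul,
    map_mul, map_inv]
  group

/-- a diagonal matrix with one entry different from one -/
def uu (o : Om F) (x : Z3) : GL Z3 F := dg fun y => if y = 0 then o.cu x else 1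

theorem uu_zero : uu o 0 = 1 := by simp [uu, Om.cu, ← Pi.one_def]

theorem t1_diag : o.P1.t (1, 0) = dg fun j => o.cu (j ^ 2) := by
  refine (Om.t_diag (1 : Z3)).trans ?_
  simp

theorem cu_add (a b : Z3) : o.cu (a + b) = o.cu a * o.cu b := Units.ext (ch_add o.hω a b)

theorem cu_zero : o.cu 0 = 1 := Units.ext ch_zero

theorem pj_uu2 : pj (uu o 2) = pj (o.P1.t (1, 0)) := by
  rw [← one_mul (pj (o.P1.t _)), ← pj_dg_const (o.cu 2), ← map_mul, t1_diag, ← map_mul, uu]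
  refine congrArg (pj <| dg ·) (funext fun y => ?_)
  rw [Pi.mul_apply, ← cu_add, ← cu_zero (o := o), ← apply_ite o.cu]
  exact congrArg _ (by revert y; decide)

theorem pj_uu1 : pj (uu o 1) = pj (o.P1.t (1, 0) * o.P1.t (1, 0)) := by
  rw [← one_mul (pj (_ * _)), ← pj_dg_const (o.cu 1), ← map_mul, t1_diag, ← map_mul, ← map_mul, uu]
  refine congrArg (pj <| dg ·) (funext fun y => ?_)
  rw [Pi.mul_apply, Pi.mul_apply, ← cu_add, ← cu_add, ← cu_zero (o := o), ← apply_ite o.cu]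
  exact congrArg _ (by revert y; decide)

theorem W1_diag (a : Z3) : o.P1.W (a, 0) = dg fun y => o.cu (a * y) := W_diag a

namespace Cx

variable (h : Cx o u σ X)
include h

theorem blk {g : Z3 → GL Z3 F} (hg : bd g ∈ X) (x : Z3) : g x ∈ o.P1.N := by
  have hn : ∀ y ∈ (X.comap bd).map (Pi.evalMonoidHom _ 0), ∀ m ∈ M0 X, y * m * y⁻¹ ∈ M0 X := by
    rintro _ ⟨g, hg, rfl⟩ m hm
    exact M0_conj hg hm
  suffices k : (X.comap bd).map (Pi.evalMonoidHom _ 0) ≤ o.P1.N from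
    k ⟨_, h.shift hg (-x), by simp⟩
  rcases h.base ((X.comap bd).map (Pi.evalMonoidHom _ 0))
    (by rintro _ ⟨g, hg, rfl⟩; exact bd_Un.1 (h.le' hg).1 0) (fun a => ⟨_, h.W_Y0 a, rfl⟩)
    (fun a ha => ⟨_, h.t_Y0 a ha, rfl⟩) with k | ⟨-, -, k⟩
  · exact k
  rcases k _ h.M0_le hn with k | k
  · rintro _ ⟨g, hg, rfl⟩ v
    refine (Wy.centE (P := o.P1) (g := g 0 * o.P1.W v * (g 0)⁻¹) fun v' => ?_).imp fun a e => ?_
    · have hg : bd g ∈ X := hg
      have h1 := mul_mem (mul_mem hg (h.cw_mem v (-v))) (inv_mem hg)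
      rw [← map_inv, ← map_mul, ← map_mul] at h1
      have := pj_eq_one.2 (k (M0_comm h1 (h.cw_mem v' v') (by simp [o.P1.W0])
        (by rw [two_smul, ← add_assoc, three_smul, o.P1.W0])))
      simpa [map_commutatorElement, commutatorElement_def, mul_inv_eq_one, Wy.Mp, Wy.w] using this
    · rw [Wy.Mp, ← e, map_mul, map_mul, map_inv]; rfl
  · refine (h.mon (fun c hc => k ▸ mem_GG.2 ⟨dg_Un.2 fun hu i => ?_, ?_⟩) (k ▸ ng_pm_GG (by decide) (by decide))).elim
    · have := hc hu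
      rcases z3 i with rfl | rfl | rfl
      · rw [Pi.mul_apply, Pi.mulSingle_eq_of_ne (by decide), Pi.mulSingle_eq_of_ne (by decide)]; simp
      · rw [Pi.mul_apply, Pi.mulSingle_eq_same, Pi.mulSingle_eq_of_ne (by decide)]; simpa using this
      · rw [Pi.mul_apply, Pi.mulSingle_eq_same, Pi.mulSingle_eq_of_ne (by decide), one_mul, Units.val_inv_eq_inv_val,
          map_inv₀, ← mul_inv, this, inv_one]
    · simp [det_dg, Finset.prod_mul_distrib, Pi.mulSingle_apply, apply_ite Units.val]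

theorem cubes {d : I9 → Fˣ} (k : dg d ∈ X) (p q : I9) : (d p : F) ^ 3 = (d q : F) ^ 3 := by
  have key : ∀ d : I9 → Fˣ, dg d ∈ X → ∀ x y y', (d (y, x) : F) ^ 3 = (d (y', x) : F) ^ 3 := fun d k x y y' =>
    dg_cube (e := fun y => d (y, x)) (h.blk (g := fun x => dg fun y => d (y, x)) (by rwa [bd_dg]) x) y y'
  exact (key d k p.2 p.1 q.1).trans (key _ (Pt_conj h.sw_Pt k) q.1 p.2 q.2)

theorem sc_M0 (a : Z3) : dg (fun _ => o.cu a) ∈ M0 X := by
  refine mem_M0.2 ((congrArg (bd · ∈ X) (funext fun x => ?_)).mp (h.sc_mem (Pi.single 0 a)))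
  by_cases e : x = 0 <;> simp [e, cu_zero, ← Pi.one_def]

theorem not_Z : o.P1.W (1, 0) ∉ M0 X := fun hZ => by
  have hY : ∀ c ∈ Y0 X, ∀ m ∈ M0 X, c * m * c⁻¹ ∈ M0 X := fun c hc m hm => M0_conj (mem_Y0.1 hc) hm
  have hc : ∀ g ∈ M0 X, ∀ g' : GL Z3 F, ∀ a, g.val = ch o.ω a • g'.val → g' ∈ M0 X := fun g hg g' a e => by
    refine (mul_mem_cancel_left (h.sc_M0 a)).1 ((congrArg (· ∈ M0 X) (Units.ext ?_)).mp hg)
    simp [e, dg_const, Om.cu]
  have hW : ∀ v, o.P1.W v ∈ M0 X := fun v => by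
    rcases eq_or_ne v 0 with rfl | hv
    · rw [o.P1.W0]; exact one_mem _
    obtain ⟨c, k, e⟩ := Wy.exists_vec h.t_Y0 (u := (1, 0)) (by decide) hv
    obtain ⟨a, e⟩ := e.ch
    exact hc _ (hY c k.1 _ hZ) _ a (by
      rw [Units.val_mul, Units.val_mul, e, smul_mul_assoc, mul_assoc, Units.mul_inv, mul_one]; rfl)
  have h1 : bd (uu o) ∈ X := by
    have : dg (fun p : I9 => if p.2 = 0 then o.cu p.1 else 1) ∈ X := by
      rw [← bd_dg]
      refine (congrArg (bd · ∈ X) (funext fun x => ?_)).mp (mem_M0.1 hZ)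
      by_cases e : x = 0 <;> simp [e, W1_diag, ← Pi.one_def]
    have := Pt_conj h.sw_Pt this
    rwa [← bd_dg] at this
  have hs := mem_Y0.1 (h.t_Y0 (0, 1) (by decide))
  have h2 := mul_mem (mul_mem hs (h.shift h1 2)) (inv_mem hs)
  rw [← map_inv, ← map_mul, ← map_mul] at h2
  have hq := M0_comm (h.shift h1 1) h2 (by rw [sub_self, uu_zero]) (by simp [uu_zero])
  simp only [Pi.mul_apply, Pi.inv_apply, show (0 : Z3) - 1 = 2 from rfl, show (0 : Z3) - 2 = 1 from rfl] at hq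
  set q := ⁅uu o 2, o.P1.t (0, 1) * uu o 1 * (o.P1.t (0, 1))⁻¹⁆ with hqd
  have i3 : ∀ a, (pj (o.P1.t a))⁻¹ = pj (o.P1.t a) * pj (o.P1.t a) := fun a => by
    rw [inv_eq_iff_mul_eq_one, ← map_mul, ← map_mul, ← pow_two, ← pow_succ', Wy.t_cube, map_one]
  have e1 : pj q = pj (o.P1.t (1, 0) * (o.P1.t (0, 1) * (o.P1.t (1, 0) * o.P1.t (1, 0)) *
      (o.P1.t (0, 1) * o.P1.t (0, 1))) * (o.P1.t (1, 0) * o.P1.t (1, 0)) *
      (o.P1.t (0, 1) * o.P1.t (1, 0) * (o.P1.t (0, 1) * o.P1.t (0, 1)))) := by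
    simp only [hqd, commutatorElement_def, map_mul, map_inv, pj_uu1, pj_uu2, ← i3]
    group
  have mE : ∀ v, o.P1.Mp (o.P1.t (1, 0)) v (v.1 - v.2, v.2) := fun v =>
    (congrArg (o.P1.Mp _ v) (by rw [Om.B1]; revert v; decide)).mp (o.P1.mp_t (1, 0) v)
  have mF : ∀ v, o.P1.Mp (o.P1.t (0, 1)) v (v.1, v.2 + v.1) := fun v =>
    (congrArg (o.P1.Mp _ v) (by rw [Om.B1]; revert v; decide)).mp (o.P1.mp_t (0, 1) v)
  have e2 : ∀ v, o.P1.Mp q v (-v.1 - v.2, v.2 - v.1) := fun v => by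
    have := ((((mE _).mul (((mF _).mul ((mE _).mul (mE _))).mul ((mF _).mul (mF _)))).mul
      ((mE _).mul (mE _))).mul (((mF _).mul (mE _)).mul ((mF _).mul (mF v)))).congr e1.symm
    refine (congrArg (o.P1.Mp q v) ?_).mp this
    clear this
    revert v
    decide
  obtain ⟨a, e3⟩ := Wy.centE (P := o.P1) (g := q * q * (pm (Equiv.neg Z3))⁻¹) fun v => by
    have := ((e2 _).mul (e2 (-v))).mul (Wy.mp_of_eq (neg_W1 (-v))).inv
    rw [neg_neg] at this
    refine (congrArg (o.P1.Mp _ v) ?_).mp this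
    clear this
    revert v
    decide
  obtain ⟨c, e4⟩ := exists_dg_const (g := (o.P1.W a)⁻¹ * (q * q)) (h := ng Z3 F * pm (Equiv.neg Z3)) (by
    rw [pj_ng, map_mul, map_inv, ← Wy.w, ← e3, map_mul, map_inv]; group)
  have h3 : (o.P1.W a)⁻¹ * (q * q) ∈ M0 X := mul_mem (inv_mem (hW a)) (mul_mem hq hq)
  have hp : ng Z3 F * pm (Equiv.neg Z3) ∈ M0 X := by
    have := (mem_GG.1 (h.M0_le h3)).2
    rw [e4, Units.val_mul, det_mul, (mem_GG.1 (ng_pm_GG (u := u) (σ := σ) (by decide) (by decide))).2, mul_one,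
      det_dg, Finset.prod_const] at this
    obtain ⟨b, e⟩ := exists_ch o.hω this
    exact hc _ h3 _ b (by rw [e4, Units.val_mul, dg_const, e, smul_mul_assoc, one_mul])
  have r1 : dg (fun p : I9 => if p.2 = 0 then (-1 : Fˣ) else 1) * pm (Equiv.swap (1, 0) (2, 0)) ∈ X := by
    rw [show Equiv.swap ((1, 0) : I9) (2, 0) = Equiv.prodCongrLeft (Pi.mulSingle (0 : Z3) (Equiv.neg Z3)) by decide,
      ← bd_pm, ← bd_dg, ← map_mul]
    refine (congrArg (bd · ∈ X) (funext fun x => ?_)).mp (mem_M0.1 hp)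
    by_cases e : x = 0
    · simp [e, ng]
    · simp [e, ← Pi.one_def]
  have r2 : dg (fun p : I9 => if p.1 = 0 then (-1 : Fˣ) else 1) * pm (Equiv.swap (0, 2) (0, 0)) ∈ X := by
    have k := mul_mem (h.sh_mem (0, 1)) h.sw_mem
    have := mul_mem (mul_mem k r1) (inv_mem k)
    rw [← mul_assoc (pm _) (ng _ _), ← (ng_comm _).eq, mul_assoc (ng _ _), ← map_mul,
      conj_mon, ← Equiv.swap_apply_apply] at this
    have k : ∀ ρ : Equiv.Perm I9, ρ = Equiv.addRight (0, 1) * sw →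
      (∀ i, (ρ⁻¹ i).2 = i.1) ∧ ρ (1, 0) = (0, 2) ∧ ρ (2, 0) = (0, 0) := by rintro _ rfl; decide
    obtain ⟨a1, a2, a3⟩ := k _ rfl
    simpa only [a1, a2, a3] using this
  have r3 := mul_mem (mul_mem (mul_mem r2 r1) (inv_mem r2)) (inv_mem r1)
  rw [← commutatorElement_def, comm_mon (by unfold Commute SemiconjBy; decide)] at r3
  have r4 := h.cubes r3 (0, 0) (0, 1)
  have h2 : (2 : F) = 0 := by
    simp only [Equiv.swap_inv, show Equiv.swap ((0, 2) : I9) (0, 0) (0, 0) = (0, 2) by decide,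
      show Equiv.swap ((0, 2) : I9) (0, 0) (0, 1) = (0, 1) by decide,
      show Equiv.swap ((1, 0) : I9) (2, 0) (0, 0) = (0, 0) by decide,
      show Equiv.swap ((1, 0) : I9) (2, 0) (0, 1) = (0, 1) by decide, if_true, show (2 : Z3) ≠ 0 by decide,
      show (1 : Z3) ≠ 0 by decide, if_false] at r4
    simp at r4
    linear_combination -r4
  refine h.mon (fun c hc => ?_) hp
  obtain ⟨b, e⟩ := exists_ch o.hω (h.two h2 c hc)
  obtain rfl : c = o.cu b := Units.ext e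
  refine (congrArg (· ∈ M0 X) ?_).mp (hW (b, 0))
  rw [W1_diag]
  refine congrArg dg (funext fun y => ?_)
  rcases z3 y with rfl | rfl | rfl
  · rw [Pi.mul_apply, Pi.mulSingle_eq_of_ne (by decide), Pi.mulSingle_eq_of_ne (by decide)]; simp [cu_zero]
  · rw [Pi.mul_apply, Pi.mulSingle_eq_same, Pi.mulSingle_eq_of_ne (by decide)]; simp
  · rw [Pi.mul_apply, Pi.mulSingle_eq_same, Pi.mulSingle_eq_of_ne (by decide), one_mul, eq_inv_iff_mul_eq_one,
      ← cu_add, mul_two, three_smul, cu_zero]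

theorem exists_cu {a b : Fˣ} (e : (a : F) ^ 3 = (b : F) ^ 3) : ∃ x, a = b * o.cu x := by
  obtain ⟨x, k⟩ := exists_ch o.hω (c := a / b) (by rw [div_pow, e, div_self (pow_ne_zero _ b.ne_zero)])
  exact ⟨x, Units.ext (by rw [Units.val_mul, Om.cu, Units.val_mk0, ← k, mul_div_cancel₀ _ b.ne_zero])⟩

theorem sum_zero {g : Z3 → GL Z3 F} (hg : bd g ∈ X) {a : Z3 → Z3 × Z3} (e : ∀ x, pj (g x) = o.P1.w (a x)) :
    a 0 + a 1 + a 2 = 0 := by
  by_contra hv
  obtain ⟨c, hc, k⟩ := Wy.exists_vec h.t_Y0 hv (v := (1, 0)) (by decide)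
  have hc := mem_Y0.1 hc.1
  have h1 := mul_mem (mul_mem hc (mul_mem hg (inv_mem (h.cw_mem (-a 1 - a 2) (a 2 - a 1))))) (inv_mem hc)
  rw [← map_inv, ← map_inv, ← map_mul, ← map_mul, ← map_mul] at h1
  have e1 : ∀ x, pj (((fun _ => c) * (g * (fun x => o.P1.W (-a 1 - a 2 + x • (a 2 - a 1)))⁻¹) *
      (fun _ => c)⁻¹ : Z3 → GL Z3 F) x) = pj (Pi.mulSingle (M := fun _ => GL Z3 F) 0 (o.P1.W (1, 0)) x) := fun x => by
    simp only [Pi.mul_apply, Pi.inv_apply, map_mul, map_inv, e]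
    rw [← Wy.w, ← Wy.w_neg, ← Wy.w_add]
    rcases z3 x with rfl | rfl | rfl
    · rw [Pi.mulSingle_eq_same, ← Wy.w, ← k]
      congr 3; simp; abel
    · rw [Pi.mulSingle_eq_of_ne (by decide), (by decide : ∀ a b : Z3 × Z3, a + -(-a - b + (1 : Z3) • (b - a)) = 0),
        Wy.w_zero]
      simp
    · rw [Pi.mulSingle_eq_of_ne (by decide), (by decide : ∀ a b : Z3 × Z3, b + -(-a - b + (2 : Z3) • (b - a)) = 0),
        Wy.w_zero]
      simp
  choose κ hκ using fun x => exists_dg_const (e1 x)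
  rw [funext hκ] at h1
  have h2 : dg (fun p : I9 => κ p.2 * if p.2 = 0 then o.cu p.1 else 1) ∈ X := by
    rw [← bd_dg]
    refine (congrArg (bd · ∈ X) (funext fun x => ?_)).mp h1
    by_cases e : x = 0 <;> simp [e, W1_diag, ← map_mul, ← Pi.mul_def]
  choose f hf using fun x => h.exists_cu (a := κ x) (b := κ 0) (by
    simpa [cu_zero] using h.cubes h2 (0, x) (0, 0))
  refine h.not_Z (mem_M0.2 (h.strip (z := bd fun x => dg fun _ => κ x) (by rw [← map_mul]; exact h1)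
    (Wy.mem_N_of_pj (Om.sc_mem f) (pj_bd (c := (κ 0 : F)) fun x => ?_).symm) (mem_GG.2 ⟨bd_Un.2 fun x => ?_, ?_⟩)))
  · rw [dg_const, dg_const, hf x, smul_smul, Units.val_mul]
  · by_cases e : x = 0
    · simpa [e] using (Om.cp1 h.om).W _
    · simp [e]
  · rw [det_bd, Pi.mulSingle_eq_of_ne (by decide : (2 : Z3) ≠ 0)]; simp [Om.det_W1]

theorem bd_N {g : Z3 → GL Z3 F} (hg : bd g ∈ X) : bd g ∈ o.P2.N := by
  obtain ⟨c, hc, e⟩ := h.exists_const (h.blk hg 0)
  have hc' : bd (fun _ => c) ∈ o.P2.N := Om.const_mem (Wy.mem_N_of_pj (h.blk hg 0) e.symm)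
  have h1 := mul_mem hg (inv_mem (mem_Y0.1 hc))
  rw [← mul_mem_cancel_right (inv_mem hc')]
  rw [← map_inv, ← map_mul] at h1 ⊢
  have e0 : pj ((g * (fun _ => c)⁻¹ : Z3 → GL Z3 F) 0) = 1 := by simp [e]
  generalize (g * (fun _ => c)⁻¹ : Z3 → GL Z3 F) = g at h1 e0
  choose γ hγ using fun x => Wy.exists_act (h.blk h1 x)
  have g0 : ∀ v, γ 0 v = v := fun v => (hγ 0 v).uniq (Wy.mp_of_w (x := 0) (by rw [e0, Wy.w_zero]) v)
  have s : ∀ a b, γ 0 a + γ 1 (a + b) + γ 2 (a + (2 : Z3) • b) = 0 := fun a b => by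
    have := mul_mem (mul_mem h1 (h.cw_mem a b)) (inv_mem h1)
    rw [← map_inv, ← map_mul, ← map_mul] at this
    simpa using h.sum_zero this (a := fun x => γ x (a + x • b)) fun x => by
      rw [← hγ x]; simp [Wy.w]
  have g1 : ∀ x v, γ x v = v := fun x v => by
    have a1 := s v (-v)
    have a2 := s v v
    rw [add_neg_cancel, map_zero, add_zero, g0, (by decide : ∀ v : Z3 × Z3, v + (2 : Z3) • -v = -v), map_neg,
      add_neg_eq_zero] at a1
    rw [g0, (by decide : ∀ v : Z3 × Z3, v + (2 : Z3) • v = 0), map_zero, add_zero, add_self3, map_neg,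
      add_neg_eq_zero] at a2
    rcases z3 x with rfl | rfl | rfl
    exacts [g0 v, a2.symm, a1.symm]
  choose a ha using fun x => Wy.centE (P := o.P1) (g := g x) fun v => by simpa [g1] using hγ x v
  have s0 := h.sum_zero h1 ha
  have hw := h.cw_mem (a 0) (a 1 - a 0)
  have h2 := mul_mem h1 (inv_mem hw)
  rw [← mul_mem_cancel_right (inv_mem (Om.cw_mem (a 0) (a 1 - a 0)))]
  rw [← map_inv, ← map_mul] at h2 ⊢
  choose κ hκ using fun x => exists_dg_const (h := 1)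
    (g := (g * (fun x => o.P1.W (a 0 + x • (a 1 - a 0)))⁻¹ : Z3 → GL Z3 F) x) (by
      have : a 0 + x • (a 1 - a 0) = a x := by
        rcases z3 x with rfl | rfl | rfl
        · simp
        · simp
        · rw [eq_neg_of_add_eq_zero_right s0]
          generalize a 0 = p, a 1 = q
          revert p q; decide
      simp [this, ha, Wy.w])
  simp only [mul_one] at hκ
  rw [funext hκ] at h2 ⊢
  choose f hf using fun x => h.exists_cu (a := κ x) (b := κ 0)
    (h.cubes (d := fun p => κ p.2) (by rwa [← bd_dg]) (0, x) (0, 0))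
  exact Wy.mem_N_of_pj (Om.sc_mem f) (pj_bd (c := (κ 0 : F)) fun x => by
    rw [dg_const, dg_const, hf x, smul_smul, Units.val_mul]).symm

/-- an element mapping a Weyl matrix to a multiple of a Weyl matrix lies in the Clifford group -/
theorem loc {g : GL I9 F} (hg : g ∈ X) {v v' : I9 × I9} (k : o.P2.Mp g v v') (hv : v ≠ 0) : g ∈ o.P2.N := by
  obtain ⟨a, ha, k1⟩ := Wy.exists_vec h.t_mem (u := ez) (by decide) hv
  obtain ⟨b, hb, k2⟩ := Wy.exists_vec h.t_mem (k.ne_zero hv) (v := ez) (by decide)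
  obtain ⟨c, e⟩ := ((k2.mul k).mul k1).exact (by decide)
  obtain ⟨f, e1⟩ := Om.exists_bd e
  have := h.bd_N (g := f) (e1 ▸ mul_mem (h.W_mem c) (mul_mem (mul_mem hb.1 hg) ha.1))
  rwa [← e1, mul_mem_cancel_left (Wy.W_mem c), mul_mem_cancel_right (H := o.P2.N) ha.2,
    mul_mem_cancel_left (H := o.P2.N) hb.2] at this

end Cx

end H21.C3
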