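import Mathlib
import Cfsg.Agent.Base
import Cfsg.Agent.Lib.Cliff3.Loc
import Cfsg.Agent.Lib.LocEven.Basic
import Cfsg.Agent.Lib.PGroup.Basic
import Cfsg.Agent.Lib.Core.CoprimeAbelian

/-! A consequence of Burnside's transfer theorem; coprime action of the Weyl group elements. -/

set_option autoImplicit false
open Matrix Cfsg Cfsg.Geo Subgroup
open scoped commutatorElement

namespace H21.C3

theorem burn {Γ : Type*} [Group Γ] [Finite Γ] {p : ℕ} [hp : Fact p.Prime] {K B A C : Subgroup Γ} (hBK : B ≤ K)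
    (hBC : B ≤ C) (hB : IsPGroup p B) (hA : IsPGroup p A) (hAK : A ≤ normalizer (K : Set Γ))
    (hAB : A ≤ centralizer (B : Set Γ))
    (h1 : ∀ x ∈ K, x ∈ normalizer (B : Set Γ) → x ∈ centralizer (B : Set Γ))
    (h2 : ∀ x ∈ K, x ∈ centralizer (B : Set Γ) → (∃ k, x ^ p ^ k = 1) → (∀ a ∈ A, ⁅x, a⁆ ∈ B) → x ∈ B)
    (h3 : ∀ L ≤ K, A ≤ normalizer (L : Set Γ) → ¬ p ∣ Nat.card L → L ≤ C) : K ≤ C := by
  obtain ⟨T, hT, hle⟩ := H68.exists_sylowIn_ge (H := A ⊔ K)
    (hA.to_sup_of_normal_right' hB (hAB.trans (centralizer_le_normalizer _))) (sup_le_sup_left hBK A)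
  have hn : A ⊔ K ≤ normalizer (K : Set Γ) := sup_le hAK le_normalizer
  have hM := hT.inf_of_normal_le hn le_sup_right
  have hBM : B ≤ T ⊓ K := le_inf (le_sup_right.trans hle) hBK
  have hS : H68.SylowIn p B K := by
    by_contra hc
    obtain ⟨y, hy, hyB, hyn⟩ := H68.exists_mem_normalizer_of_lt hM.isPGroup
      (lt_of_le_of_ne hBM fun e => hc (e ▸ hM))
    obtain ⟨x, hx, hxB, -, k⟩ := H5.exists_step_of_le (P := T ⊓ centralizer (B : Set Γ))
      (hT.isPGroup.to_le inf_le_left) B (N := T ⊓ centralizer (B : Set Γ) ⊓ K) inf_le_left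
      (H2.le_normalizer_inf le_normalizer (inf_le_left.trans (hT.le.trans hn)))
      fun e => hyB (e ⟨⟨hy.1, h1 y hy.2 hyn⟩, hy.2⟩)
    exact hxB (h2 x hx.2 hx.1.2 (H68.isPGroup_iff_forall.1 hT.isPGroup x hx.1.1) fun a ha =>
      k a ⟨hle (mem_sup_left ha), hAB ha⟩)
  have hP : normalizer (hS.toSylow : Set K) ≤ centralizer (hS.toSylow : Set K) := fun x hx y hy => by
    refine Subtype.ext (h1 x x.2 (H68.mem_normalizer_of_cj_le (H68.cj_le_iff'.2 fun b hb => ?_)) y hy)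
    exact (mem_normalizer_iff.1 hx ⟨b, hBK hb⟩).1 hb
  have hc := MonoidHom.ker_transferSylow_isComplement' hS.toSylow hP
  have hd := MonoidHom.not_dvd_card_ker_transferSylow hS.toSylow hP
  set L := (MonoidHom.transferSylow hS.toSylow hP).ker
  have hL : L.map K.subtype ≤ C := h3 _ (map_subtype_le _) (fun a ha => by
    refine H68.mem_normalizer_of_cj_le (H68.cj_le_iff'.2 ?_)
    rintro _ ⟨x, hx, rfl⟩
    refine ⟨⟨_, H2.conj_mem_of_le_normalizer hAK ha x.2⟩, H1.mem_of_coprime_index ?_, rfl⟩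
    obtain ⟨k, hk⟩ := hS.toSylow.isPGroup'.exists_card_eq
    rw [hc.symm.index_eq_card, hk, ← orderOf_coe]
    refine Nat.Coprime.pow_right _ ((hp.out.coprime_iff_not_dvd.2 fun e => hd (e.trans ?_)).symm)
    exact ((MulAut.conj a).orderOf_eq x).dvd.trans (orderOf_coe x ▸ H1.orderOf_dvd_card_of_mem hx))
    (by rwa [card_map_of_injective K.subtype_injective])
  intro x hx
  obtain ⟨⟨a, b⟩, e, -⟩ := hc.existsUnique ⟨x, hx⟩
  rw [show x = (a.1 : Γ) * (b.1 : Γ) from (congrArg Subtype.val e).symm]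
  exact mul_mem (hL ⟨_, a.2, rfl⟩) (hBC b.2)

variable {F : Type*} [Field F]

namespace Wy

variable {n E : Type} [Fintype n] [DecidableEq n] [Nonempty n] [AddCommGroup E] [Module (ZMod 3) E] (P : Wy F n E)

/-- image of a subspace in the projective group -/
def im {E' : Type} [AddCommGroup E'] (f : E' →+ E) : Subgroup (PG n F) where
  carrier := {x | ∃ v, P.w (f v) = x}
  one_mem' := ⟨0, by rw [map_zero, w_zero]⟩
  mul_mem' := by rintro _ _ ⟨a, rfl⟩ ⟨b, rfl⟩; exact ⟨a + b, by rw [map_add, w_add]⟩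
  inv_mem' := by rintro _ ⟨a, rfl⟩; exact ⟨-a, by rw [map_neg, w_neg]⟩

variable {E' : Type} [AddCommGroup E'] (f : E' →+ E)

omit [Nonempty n] in
theorem w_cube (u : E) : P.w u ^ 3 = 1 := by rw [w, ← map_pow, W_cube, map_one]

theorem im_pGroup : IsPGroup 3 (P.im f) := H68.isPGroup_iff_forall.2 <| by
  rintro _ ⟨a, rfl⟩
  exact ⟨1, P.w_cube _⟩

theorem im_cent {E'' : Type} [AddCommGroup E''] (f' : E'' →+ E) : P.im f ≤ centralizer (P.im f' : Set (PG n F)) := by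
  rintro _ ⟨a, rfl⟩ _ ⟨b, rfl⟩
  exact P.w_comm _ _

variable {P} {g : GL n F} {v : E}

theorem Mp.pow (k : P.Mp g v v) (m : ℕ) : P.Mp (g ^ m) v v := by
  induction m with
  | zero => rw [pow_zero]; exact mp_one v
  | succ m ih => rw [pow_succ]; exact ih.mul k

theorem Mp.eq_zero (k : P.Mp g v (-v)) {m : ℕ} (hm : Odd m) (e : pj g ^ m = 1) : v = 0 := by
  obtain ⟨l, rfl⟩ := hm
  have k1 : P.Mp g (-v) v := by simpa using k.neg
  have k2 := (((k1.mul k).pow l).neg).mul k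
  rw [← pow_two, ← pow_mul, ← pow_succ] at k2
  have := (k2.congr (h := 1) (by rw [map_pow, e, map_one])).uniq (mp_one v)
  rw [← add_self3, add_eq_left] at this
  exact this

end Wy

/-- the vectors acting on the first coordinate -/
def embH : Z3 × Z3 →+ I9 × I9 := AddMonoidHom.mk' emb fun a b => by simp [emb]

theorem emb_ncyc : ∀ a : Z3 × Z3, ¬ ∀ v, ∃ c : Z3, emb v = c • emb a := by decide

variable {o : Om F} {u : Prop} {σ : F →+* F} {X : Subgroup (GL I9 F)}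

theorem Cx.cop [Finite F] (h : Cx o u σ X) {L : Subgroup (PG I9 F)} (hL : L ≤ X.map pj)
    (hn : o.P2.im embH ≤ normalizer (L : Set (PG I9 F))) (h3 : ¬ 3 ∣ Nat.card L) : L ≤ o.P2.N.map pj := by
  haveI : Fact (Nat.Prime 3) := ⟨Nat.prime_three⟩
  refine H2.le_of_forall_centralizer_le (A := o.P2.im embH)
    ⟨⟨fun a b => Subtype.ext (o.P2.im_cent embH embH b.2 a a.2)⟩⟩ (fun hc => ?_) hn ?_ ?_
  · obtain ⟨⟨_, a, rfl⟩, ha⟩ := hc.exists_generator
    have k : ∀ v, ∃ c : Z3, embH v = c • embH a := fun v => by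
      obtain ⟨m, e⟩ := ha ⟨_, v, rfl⟩
      have e : o.P2.w (embH a) ^ m = o.P2.w (embH v) := congrArg Subtype.val e
      refine ⟨m, o.P2.w_inj ?_⟩
      rw [← e, Int.cast_smul_eq_zsmul]
      exact (map_zpow (MonoidHom.mk' (fun x : Multiplicative (I9 × I9) => o.P2.w x.toAdd)
        fun x y => o.P2.w_add _ _) (.ofAdd (embH a)) m).symm
    exact emb_ncyc a k
  · obtain ⟨k, e⟩ := (o.P2.im_pGroup embH).exists_card_eq
    rw [e]
    exact Nat.Coprime.pow_left _ (Nat.prime_three.coprime_iff_not_dvd.2 h3)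
  · rintro _ ⟨a, rfl⟩ ha x ⟨hx, hc⟩
    obtain ⟨g, hg, rfl⟩ := hL hx
    refine ⟨g, h.loc hg (v := embH a) (v' := embH a) ?_ fun e => ha (by rw [e, Wy.w_zero]), rfl⟩
    rw [Wy.Mp, ← hc _ rfl, mul_inv_cancel_right]

end H21.C3
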