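import Mathlib
import Cfsg.Agent.Base
import Cfsg.Agent.Lib.Cliff3.Burn

/-! Overgroups of the Clifford group in dimension nine: the centraliser of a partial reflection. -/

set_option autoImplicit false
open Matrix Cfsg Cfsg.Geo Subgroup
open scoped commutatorElement

namespace H21.C3

variable {F : Type*} [Field F]

/-- the centraliser of the partial reflection -/
def Kp (F : Type*) [Field F] : Subgroup (GL I9 F) := centralizer {pm px}

theorem mem_Kp {g : GL I9 F} : g ∈ Kp F ↔ pm px * g = g * pm px := by simp [Kp, mem_centralizer_iff]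

/-- action on the odd part -/
def rm (M : Matrix I9 I9 F) : Matrix Z3 Z3 F := of fun y y' => M (y, 1) (y', 1) - M (y, 1) (y', 2)

theorem sym_of {g : GL I9 F} (h : g ∈ Kp F) (i j : I9) : g.val (px i) (px j) = g.val i j := by
  have := congrArg (fun x : GL I9 F => x.val (px i) j) (mem_Kp.1 h)
  simp only [Units.val_mul, pm_mul_apply, mul_pm_apply, Equiv.Perm.coe_inv, Equiv.symm_apply_apply] at this
  exact this.symm

theorem sum_z3 (f : Z3 → F) : ∑ x, f x = f 0 + f 1 + f 2 := Fin.sum_univ_three f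

theorem rm_mul (M : Matrix I9 I9 F) {g : GL I9 F} (h : g ∈ Kp F) : rm (M * g.val) = rm M * rm g.val := by
  ext y y'
  simp only [rm, of_apply, mul_apply, Fintype.sum_prod_type, ← Finset.sum_sub_distrib]
  refine Finset.sum_congr rfl fun z _ => ?_
  have a0 : g.val (z, 0) (y', 2) = g.val (z, 0) (y', 1) := sym_of h (z, 0) (y', 1)
  have a1 : g.val (z, 2) (y', 2) = g.val (z, 1) (y', 1) := sym_of h (z, 1) (y', 1)
  have a2 : g.val (z, 2) (y', 1) = g.val (z, 1) (y', 2) := sym_of h (z, 1) (y', 2)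
  rw [sum_z3, a0, a1, a2]
  ring

theorem rm_bd (g : Z3 → GL Z3 F) : rm (bd g).val = (g 1).val := by
  ext y y'
  rw [rm, of_apply, bd_apply, bd_apply, if_pos rfl, if_neg (by decide : (1 : Z3) ≠ 2), sub_zero]

theorem rm_smul (c : F) (M : Matrix I9 I9 F) : rm (c • M) = c • rm M := by
  ext; simp [rm, mul_sub]

theorem rm_one : rm (1 : Matrix I9 I9 F) = 1 := by simpa using rm_bd (F := F) 1

theorem rm_st (σ : F →+* F) {g : GL I9 F} (h : g ∈ Kp F) : rm (st σ g.val) = st σ (rm g.val) := by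
  ext y y'
  have a : g.val (y', 2) (y, 1) = g.val (y', 1) (y, 2) := sym_of h (y', 1) (y, 2)
  simp [rm, st, a]

/-- action on the odd part -/
def rho : Kp F →* GL Z3 F :=
  MonoidHom.toHomUnits ⟨⟨fun g => rm g.1.val, rm_one⟩, fun a b => rm_mul _ b.2⟩

theorem rho_val (g : Kp F) : (rho g).val = rm g.1.val := rfl

theorem rho_bd {g : Z3 → GL Z3 F} (h : bd g ∈ Kp F) : rho ⟨bd g, h⟩ = g 1 := Units.ext (rm_bd g)

/-- elements acting as scalars on the odd part -/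
def K0 (X : Subgroup (GL I9 F)) : Subgroup (Kp F) := X.subgroupOf (Kp F) ⊓ (pj.comp rho).ker

theorem mem_K0 {X : Subgroup (GL I9 F)} {g : Kp F} : g ∈ K0 X ↔ g.1 ∈ X ∧ pj (rho g) = 1 := Iff.rfl

theorem t_neg {n E : Type} [Fintype n] [DecidableEq n] [AddCommGroup E] [Module (ZMod 3) E] (P : Wy F n E) (a : E) :
    P.t (-a) = P.t a := Units.ext <| by
  rw [Wy.t_val, Wy.t_val, tm, tm, ← Units.val_mul, ← Units.val_mul, P.W_sq, P.W_sq, neg_neg, add_right_comm]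

variable {o : Om F} {u : Prop} {σ : F →+* F} {X : Subgroup (GL I9 F)}

/-- powers of the diagonal transvection lift -/
def tz (o : Om F) (k : Z3) : GL I9 F := dg fun p => o.cu (k * p.2 ^ 2)

theorem tz_add (a b : Z3) : tz o (a + b) = tz o a * tz o b := by
  rw [tz, tz, tz, ← map_mul]
  exact congrArg dg (funext fun p => by rw [add_mul, cu_add]; rfl)

theorem tz_zero : tz o 0 = 1 := by simp [tz, cu_zero, ← Pi.one_def]

theorem tz_one : tz o 1 = o.P2.t ez := by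
  refine Eq.trans ?_ (Om.t_diag ((0, 1) : I9)).symm
  simp [tz, d2_apply]

theorem tz_ind {p : GL I9 F → Prop} (h0 : p 1) (h1 : p (o.P2.t ez)) (h2 : ∀ a b, p a → p b → p (a * b)) (k : Z3) :
    p (tz o k) := by
  rcases z3 k with rfl | rfl | rfl
  · rwa [tz_zero]
  · rwa [tz_one]
  · rw [show (2 : Z3) = 1 + 1 from rfl, tz_add, tz_one]; exact h2 _ _ h1 h1

theorem mp_tz (k : Z3) (v : I9 × I9) : o.P2.Mp (tz o k) v (v + (k * o.P2.B ez v) • ez) := by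
  rcases z3 k with rfl | rfl | rfl
  · simpa [tz_zero] using Wy.mp_one v
  · simpa [tz_one] using o.P2.mp_t ez v
  · have := (o.P2.mp_t ez _).mul (o.P2.mp_t ez v)
    rw [map_add, map_smul, Wy.alt, smul_zero, add_zero, add_assoc, ← add_smul, ← two_mul, ← tz_one, ← tz_add] at this
    exact this

theorem W_Kp (v : Z3 × Z3) : o.P2.W (emb v) ∈ Kp F := mem_Kp.2 ((px_W _).trans (by simp [emb]))

theorem embH_apply (v : Z3 × Z3) : embH v = emb v := rfl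

theorem embH_inj : ∀ a b, embH (-b + a) = 0 → a = b := by decide

theorem emb_ne : ∀ a, a ≠ 0 → emb a ≠ 0 := by decide

theorem t_Kp {v : I9 × I9} (h : ((v.1.1, -v.1.2), (v.2.1, -v.2.2)) = v ∨ ((v.1.1, -v.1.2), (v.2.1, -v.2.2)) = -v) :
    o.P2.t v ∈ Kp F := mem_Kp.2 <| by
  rw [Wy.t_conj (px_W v)]
  rcases h with h | h <;> rw [h]
  rw [t_neg]

theorem tz_Kp (k : Z3) : tz o k ∈ Kp F :=
  tz_ind (p := (· ∈ Kp F)) (one_mem _) (t_Kp (by decide)) (fun _ _ => mul_mem) k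

theorem rho_W (v : Z3 × Z3) : rho ⟨_, W_Kp (o := o) v⟩ = o.P1.W v := Units.ext (by
  rw [rho_val]; simp only [Om.W_emb, rm_bd])

theorem rho_tz (k : Z3) : (rho ⟨_, tz_Kp (o := o) k⟩).val = ch o.ω k • 1 := by
  rw [rho_val]; simp only [tz, ← bd_dg, rm_bd, dg_const]; simp [Om.cu]

theorem trace_tz (k : Z3) : (tz o k).val.trace = 3 * (1 + 2 * ch o.ω k) := by
  rw [tz, dg_val, trace_diagonal, Fintype.sum_prod_type]
  simp only [sum_z3, show (2 : Z3) ^ 2 = 1 from rfl, Om.cu]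
  simp; ring

theorem F0 {y : Kp F} {e : I9 × I9} (h : pj y.1 = o.P2.w e) : ∃ v, e = emb v ∧ pj (rho y) = o.P1.w v := by
  have k : o.P2.Mp (pm px) e e := by
    rw [Wy.Mp, ← h, ← map_mul, mem_Kp.1 y.2, map_mul, mul_inv_cancel_right]
  have := k.uniq (Wy.mp_of_eq (px_W e))
  obtain ⟨v, rfl⟩ : ∃ v, e = emb v := by
    clear h k
    revert e
    decide
  obtain ⟨c, e⟩ := pj_eq.1 h
  exact ⟨v, rfl, pj_eq.2 ⟨c, by rw [rho_val, e, rm_smul, Om.W_emb, rm_bd]⟩⟩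

theorem F1 {y : Kp F} {e : I9 × I9} (h : pj y.1 = o.P2.w e) (k : pj (rho y) = 1) : e = 0 := by
  obtain ⟨v, rfl, e⟩ := F0 h
  rw [o.P1.w_eq_one (e.symm.trans k)]; rfl

theorem F2 {y : Kp F} (h : y.1 ∈ o.P2.N) (k : pj (rho y) = 1) (v : Z3 × Z3) : o.P2.Mp y.1 (emb v) (emb v) := by
  obtain ⟨e, he⟩ := h (emb v)
  have := F1 (o := o) (y := y * ⟨_, W_Kp (o := o) v⟩ * y⁻¹ * ⟨_, W_Kp (o := o) v⟩⁻¹) (e := e - emb v)
    (by rw [sub_eq_add_neg, Wy.w_add, Wy.w_neg, ← he]; simp [Wy.w]) (by simp [k])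
  rwa [sub_eq_zero.1 this] at he

theorem F3 {y : Kp F} (h : y.1 ∈ o.P2.N) (k : pj (rho y) = 1) (hc : Commute (pj y.1) (pj (tz o 1))) {m : ℕ}
    (hm : pj y.1 ^ 3 ^ m = 1) : ∃ a, pj y.1 = pj (tz o a) := by
  obtain ⟨γ, hγ⟩ := Wy.exists_act h
  have e1 := (((hγ _).mul (mp_tz 1 ex)).congr (h := tz o 1 * y.1) (by rw [map_mul, map_mul, hc.eq])).uniq
    ((mp_tz 1 _).mul (hγ ex))
  rw [map_add, add_right_inj, map_smul, one_mul, one_mul, show o.P2.B ez ex = -1 by rw [Om.B2]; decide, neg_smul,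
    one_smul, neg_eq_iff_eq_neg, ← neg_smul] at e1
  have e2 := (hγ ez).B_eq (hγ ex)
  rw [e1, map_smul, LinearMap.smul_apply, show o.P2.B ez ex = -1 by rw [Om.B2]; decide] at e2
  have e3 : o.P2.B ez (γ ex) = -1 := by
    rcases z3 (o.P2.B ez (γ ex)) with c | c | c <;> rw [c] at e1 e2
    · exact absurd e2 (by decide)
    · have := hγ ez
      rw [e1, neg_smul, one_smul] at this
      exact absurd (this.eq_zero (Odd.pow (by decide)) hm) (by decide)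
    · exact c
  have e4 : ∀ v, o.P2.B (emb v) (γ ex) = o.P2.B (emb v) ex := fun v => (F2 h k v).B_eq (hγ ex)
  obtain ⟨a, e5⟩ : ∃ a : Z3, γ ex = ex + (a * o.P2.B ez ex) • ez := by
    have a1 := e4 (1, 0)
    have a2 := e4 (0, 1)
    revert e3 a1 a2
    simp only [Om.B2]
    generalize γ ex = x
    revert x
    decide
  have k1 : ∀ v, o.P2.Mp ((tz o a)⁻¹ * y.1) v v := fun v => by
    have b1 : ∀ v, o.P2.Mp ((tz o a)⁻¹ * y.1) (emb v) (emb v) := fun v => by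
      have := mp_tz (o := o) a (emb v)
      rw [show o.P2.B ez (emb v) = 0 by simp [Om.B2, ez, emb], mul_zero, zero_smul, add_zero] at this
      exact this.inv.mul (F2 h k v)
    have b2 : o.P2.Mp ((tz o a)⁻¹ * y.1) ez ez := by
      have := mp_tz (o := o) a ez
      rw [Wy.alt, mul_zero, zero_smul, add_zero] at this
      refine this.inv.mul ?_
      simpa [e1, e3] using hγ ez
    have := ((b1 (v.1.1, v.2.1)).add (b2.smul v.1.2)).add (((mp_tz a ex).inv.mul (e5 ▸ hγ ex)).smul v.2.2)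
    rwa [show emb (v.1.1, v.2.1) + v.1.2 • ez + v.2.2 • ex = v by ext <;> simp [emb, ez, ex]] at this
  obtain ⟨e, he⟩ := Wy.centE k1
  have := F1 (y := ⟨_, tz_Kp a⟩⁻¹ * y) he (by
    rw [map_mul, map_mul, k, map_inv, map_inv, pj_one.2 ⟨_, rho_tz a⟩]; simp)
  rw [this, Wy.w_zero, map_mul, map_inv, inv_mul_eq_one] at he
  exact ⟨a, he.symm⟩

theorem F4 {y : Kp F} (k : pj (rho y) = 1) {a : Z3} (h : pj (y.1 * tz o 1 * y.1⁻¹) = pj (tz o a)) : a = 1 := by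
  obtain ⟨c, e⟩ := pj_eq.1 h
  obtain ⟨d, e'⟩ := exists_dg_const (k.trans (map_one pj).symm)
  have e1 : (rho (y * ⟨_, tz_Kp (o := o) 1⟩ * y⁻¹)).val = c • (rho ⟨_, tz_Kp (o := o) a⟩).val := by
    rw [rho_val, rho_val, ← rm_smul, ← e]; rfl
  rw [map_mul, map_mul, map_inv, e', mul_one, (dg_const_comm _ _).eq, mul_inv_cancel_right, rho_tz, rho_tz,
    smul_smul] at e1
  have e2 : ch o.ω 1 = c * ch o.ω a := smul_cancel 1 e1
  have e3 := congrArg trace e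
  rw [Units.val_mul, Units.val_mul, trace_units_conj, trace_smul, trace_tz, trace_tz, smul_eq_mul] at e3
  have : c = 1 := mul_left_cancel₀ o.h3 (by linear_combination 6 * e2 - e3)
  rw [this, one_mul] at e2
  exact (ch_inj o.hω o.h3 e2).symm

/-- image of the cyclic group generated by the diagonal transvection lift -/
def Bz (o : Om F) : Subgroup (PG I9 F) where
  carrier := {x | ∃ a, pj (tz o a) = x}
  one_mem' := ⟨0, by rw [tz_zero, map_one]⟩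
  mul_mem' := by rintro _ _ ⟨a, rfl⟩ ⟨b, rfl⟩; exact ⟨a + b, by rw [tz_add, map_mul]⟩
  inv_mem' := by
    rintro _ ⟨a, rfl⟩
    exact ⟨-a, by rw [eq_inv_iff_mul_eq_one, ← map_mul, ← tz_add, neg_add_cancel, tz_zero, map_one]⟩

theorem cent_Bz {x : PG I9 F} (h : Commute x (pj (tz o 1))) : x ∈ centralizer (Bz o : Set (PG I9 F)) := by
  rintro _ ⟨a, rfl⟩
  exact (tz_ind (p := fun g => Commute x (pj g)) (by simp) (tz_one (o := o) ▸ h)
    (fun _ _ a b => by rw [map_mul]; exact a.mul_right b) a).symm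

namespace Cx

variable [Finite F] (h : Cx o u σ X)
include h

omit [Finite F] in
theorem tz_K0 (a : Z3) : ⟨_, tz_Kp (o := o) a⟩ ∈ K0 X := mem_K0.2
  ⟨tz_ind (p := (· ∈ X)) (one_mem _) (h.t_mem _ (by decide)) (fun _ _ => mul_mem) a, pj_one.2 ⟨_, rho_tz a⟩⟩

theorem K0_N {y : Kp F} (hy : y ∈ K0 X) : y.1 ∈ o.P2.N := by
  haveI : Fact (Nat.Prime 3) := ⟨Nat.prime_three⟩
  suffices k : (K0 X).map (pj.comp (Kp F).subtype) ≤ o.P2.N.map pj by
    obtain ⟨g, hg, e⟩ := k ⟨y, hy, rfl⟩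
    exact Wy.mem_N_of_pj hg e
  refine burn (p := 3) (B := Bz o) (A := o.P2.im embH) ?_ ?_ (H68.isPGroup_iff_forall.2 ?_) (o.P2.im_pGroup _)
    ?_ ?_ ?_ ?_ fun L hL => h.cop (hL.trans ?_)
  · rintro _ ⟨a, rfl⟩
    exact ⟨_, h.tz_K0 a, rfl⟩
  · rintro _ ⟨a, rfl⟩
    exact ⟨_, fun v => ⟨_, mp_tz a v⟩, rfl⟩
  · rintro _ ⟨a, rfl⟩
    exact ⟨1, by rw [pow_one, pow_succ, pow_two, ← map_mul, ← map_mul, ← tz_add, ← tz_add, three_smul, tz_zero, map_one]⟩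
  · rintro _ ⟨v, rfl⟩
    refine H68.mem_normalizer_of_cj_le (H68.cj_le_iff'.2 ?_)
    rintro _ ⟨x, hx, rfl⟩
    exact ⟨⟨_, W_Kp (o := o) v⟩ * x * ⟨_, W_Kp (o := o) v⟩⁻¹, mem_K0.2 ⟨mul_mem (mul_mem (h.W_mem _) (mem_K0.1 hx).1)
      (inv_mem (h.W_mem _)), by simp [(mem_K0.1 hx).2]⟩, by simp [Wy.w, embH_apply]⟩
  · rintro _ ⟨v, rfl⟩
    refine cent_Bz (Commute.symm ?_)
    have := mp_tz (o := o) 1 (emb v)
    rw [show o.P2.B ez (emb v) = 0 by simp [Om.B2, ez, emb], mul_zero, zero_smul, add_zero] at this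
    exact mul_inv_eq_iff_eq_mul.1 this
  · rintro _ ⟨x, hx, rfl⟩ hn
    obtain ⟨a, e⟩ := (mem_normalizer_iff.1 hn _).1 ⟨1, rfl⟩
    have e : pj (x.1 * tz o 1 * x.1⁻¹) = pj (tz o a) := by rw [e]; simp
    rw [F4 hx.2 e, map_mul, map_mul, map_inv] at e
    exact cent_Bz (mul_inv_eq_iff_eq_mul.1 e)
  · rintro _ ⟨x, hx, rfl⟩ hc ⟨m, hm⟩ k
    choose f hf using fun v => k _ ⟨v, rfl⟩
    obtain ⟨v, v', hv, e⟩ := Fintype.exists_ne_map_eq_of_card_lt f (by decide)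
    have k : o.P2.Mp x.1 (embH (-v' + v)) (embH (-v' + v)) := by
      have a1 := hf v
      have a2 := hf v'
      rw [e, a2, commutatorElement_def, commutatorElement_def] at a1
      change pj x.1 * _ * (pj x.1)⁻¹ * _ = pj x.1 * _ * (pj x.1)⁻¹ * _ at a1
      rw [Wy.Mp, map_add, map_neg, Wy.w_add, Wy.w_neg]
      calc _ = (pj x.1 * o.P2.w (embH v') * (pj x.1)⁻¹)⁻¹ *
            (pj x.1 * o.P2.w (embH v) * (pj x.1)⁻¹ * (o.P2.w (embH v))⁻¹) * o.P2.w (embH v) := by group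
        _ = _ := by rw [← a1]; group
    obtain ⟨a, e⟩ := F3 (h.loc hx.1 k fun e => hv (embH_inj _ _ e)) hx.2
      (hc _ ⟨1, rfl⟩).symm hm
    exact ⟨a, e.symm⟩
  · rintro _ ⟨x, hx, rfl⟩
    exact ⟨_, hx.1, rfl⟩

theorem F5 {x : Kp F} (hx : x.1 ∈ X) {v v' : Z3 × Z3} (k : o.P1.Mp (rho x) v v') (hv : v ≠ 0) : x.1 ∈ o.P2.N := by
  have c0 : ∀ z ∈ K0 X, ∀ v, Commute (pj z.1) (o.P2.w (emb v)) := fun z hz v =>
    mul_inv_eq_iff_eq_mul.1 (F2 (h.K0_N hz) hz.2 v)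
  have hy : x * ⟨_, W_Kp (o := o) v⟩ * x⁻¹ * ⟨_, W_Kp (o := o) v'⟩⁻¹ ∈ K0 X := mem_K0.2
    ⟨mul_mem (mul_mem (mul_mem hx (h.W_mem _)) (inv_mem hx)) (inv_mem (h.W_mem _)), by
      simp only [map_mul, map_inv, rho_W]
      exact mul_inv_eq_one.2 k⟩
  have ey : pj (x * ⟨_, W_Kp (o := o) v⟩ * x⁻¹ * ⟨_, W_Kp (o := o) v'⟩⁻¹ : Kp F).1 =
      pj x.1 * o.P2.w (emb v) * (pj x.1)⁻¹ * (o.P2.w (emb v'))⁻¹ := by simp [Wy.w]
  generalize (x * ⟨_, W_Kp (o := o) v⟩ * x⁻¹ * ⟨_, W_Kp (o := o) v'⟩⁻¹ : Kp F) = y at hy ey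
  have c1 : ∀ z ∈ K0 X, Commute (pj y.1) (pj z.1) := fun z hz => by
    have := (c0 (x⁻¹ * z * x) (mem_K0.2 ⟨mul_mem (mul_mem (inv_mem hx) (mem_K0.1 hz).1) hx, by
      simp [(mem_K0.1 hz).2]⟩) v).symm.map (MulAut.conj (pj x.1))
    rw [ey]
    exact Commute.mul_left (by simpa [mul_assoc] using this) (c0 z hz v').symm.inv_left
  have e3 : pj y.1 ^ 3 ^ 1 = 1 := by
    have := (c0 y hy v').mul_pow 3
    rw [Wy.w_cube, mul_one, ey, inv_mul_cancel_right, conj_pow, Wy.w_cube, mul_one, mul_inv_cancel, ← ey] at this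
    exact this.symm
  obtain ⟨a, e⟩ := F3 (h.K0_N hy) hy.2 (c1 _ (h.tz_K0 1)) e3
  have hs : o.P2.t ex ∈ Kp F := t_Kp (by decide)
  have c2 := c1 ⟨_, hs⟩ <| mem_K0.2 ⟨h.t_mem _ (by decide), pj_one.2 (o.P1.cent _ fun v => by
    have : o.P2.W (emb v) * o.P2.t ex = o.P2.t ex * o.P2.W (emb v) := Wy.t_conj (by
      rw [← Wy.W_add _ (by simp [Om.B2, emb, ex]), ← Wy.W_add _ (by simp [Om.B2, emb, ex]), add_comm])
    rw [← rho_W, ← Units.val_mul, ← Units.val_mul, ← map_mul, ← map_mul]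
    exact congrArg (fun z => (rho z).val) (Subtype.ext this.symm))⟩
  rw [e] at c2
  have e4 := (((mp_tz a _).mul (o.P2.mp_t ex ex)).congr (h := o.P2.t ex * tz o a)
    (by rw [map_mul, map_mul, c2.eq])).uniq ((o.P2.mp_t ex _).mul (mp_tz a ex))
  obtain rfl : a = 0 := by
    revert e4
    simp only [Om.B2]
    clear e c2
    revert a
    decide
  rw [tz_zero, map_one, ey, mul_inv_eq_one] at e
  exact h.loc hx e (emb_ne v hv)

/-- the centraliser of the partial reflection lies in the Clifford group -/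
theorem Kp_N {g : GL I9 F} (hg : g ∈ X) (hk : g ∈ Kp F) : g ∈ o.P2.N := by
  have b1 : (X.subgroupOf (Kp F)).map rho ≤ Un u σ Z3 := by
    rintro _ ⟨x, hx, rfl⟩ hu
    rw [rho_val, ← rm_st σ x.2, ← rm_mul _ x.2, show st σ x.1.val * x.1.val = 1 from (h.le' hx).1 hu, rm_one]
  have b2 : ∀ a, o.P1.W a ∈ (X.subgroupOf (Kp F)).map rho := fun a =>
    ⟨⟨_, W_Kp (o := o) a⟩, h.W_mem _, rho_W a⟩
  have b3 : ∀ a, a ≠ 0 → o.P1.t a ∈ (X.subgroupOf (Kp F)).map rho := fun a ha =>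
    ⟨⟨o.P2.t (emb a), t_Kp (Or.inl (by simp [emb]))⟩, h.t_mem _ (emb_ne a ha), Units.ext (by
      rw [rho_val]; exact (congrArg (fun z : GL I9 F => rm z.val) (o.t_emb a)).trans (rm_bd _))⟩
  rcases h.base _ b1 b2 b3 with k | ⟨h2, k, -⟩
  · obtain ⟨v, k⟩ := k (x := rho ⟨g, hk⟩) ⟨⟨g, hk⟩, hg, rfl⟩ (1, 0)
    exact h.F5 (x := ⟨g, hk⟩) hg k (by decide)
  obtain ⟨x, hx, e⟩ := k (x := dg fun y => if y = 0 then 1 else -1) (mem_GG.2 ⟨dg_Un.2 fun _ i => by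
    split_ifs <;> simp, by
      rw [det_dg]
      refine (Fin.prod_univ_three _).trans ?_
      show ((1 : Fˣ) : F) * ((-1 : Fˣ) : F) * ((-1 : Fˣ) : F) = 1
      simp⟩)
  have k1 := h.F5 hx (v := (1, 0)) (v' := (1, 0)) (Wy.mp_of_eq (by
    rw [e, W1_diag, ← map_mul, ← map_mul, mul_comm])) (by decide)
  have k2 : rho x ∈ o.P1.N := fun v => by
    obtain ⟨v', k⟩ := k1 (emb v)
    obtain ⟨w, -, k⟩ := F0 (y := x * ⟨_, W_Kp (o := o) v⟩ * x⁻¹) (e := v') (by rw [← k]; simp [Wy.w])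
    exact ⟨w, by rw [Wy.Mp, ← k]; simp [rho_W, Wy.w]⟩
  have := dg_cube (e ▸ k2) 0 1
  simp at this
  exact absurd (by linear_combination this) h2

end Cx

end H21.C3
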