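import Mathlib
import Cfsg.Agent.Base
import Cfsg.Agent.Lib.Cliff3.Burn
import Cfsg.Agent.Lib.Asch.Form
import Cfsg.Agent.Lib.Asch.MinNormal

/-! Fourier expansion in a Weyl system; abelian normal subgroups of overgroups of the Clifford group. -/

set_option autoImplicit false
open Matrix Cfsg Cfsg.Geo Subgroup H10.Asch
open scoped commutatorElement

namespace H21.C3.Wy

variable {F : Type*} [Field F] {n E : Type} [Fintype n] [DecidableEq n] [Nonempty n] [AddCommGroup E]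
  [Module (ZMod 3) E] [Fintype E] {P : Wy F n E} {Y : Subgroup (GL n F)}

omit [Nonempty n] in
theorem sum_ch {u : E} (h : u ≠ 0) : ∑ v, ch P.ω (P.B u v) = 0 := by
  obtain ⟨a, ha⟩ := P.exists_B h
  have := Equiv.sum_comp (Equiv.addRight a) fun v => ch P.ω (P.B u v)
  simp only [Equiv.coe_addRight, map_add, ha, ch_add P.hω, ← Finset.sum_mul, ch_one] at this
  exact (mul_eq_zero.1 (show (∑ v, ch P.ω (P.B u v)) * (P.ω - 1) = 0 by linear_combination this)).resolve_right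
    (sub_ne_zero.2 (om_ne_one P.hω P.h3))

omit [Nonempty n] in
theorem fourier (x : Matrix n n F) : ∃ c : E → F, (Fintype.card E : F) • x = ∑ v, c v • (P.W v).val ∧
    ∀ v, c v • (P.W v).val = ∑ u, ch P.ω (P.B u v) • ((P.W u).val * x * (P.W (-u)).val) := by
  classical
  have k : ∀ v, ∃ c : F, c • (P.W v).val = ∑ u, ch P.ω (P.B u v) • ((P.W u).val * x * (P.W (-u)).val) := fun v => by
    set y := ∑ u, ch P.ω (P.B u v) • ((P.W u).val * x * (P.W (-u)).val)
    have e : ∀ a, y * (P.W a).val = ch P.ω (P.B a v) • ((P.W a).val * y) := fun a => by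
      rw [Finset.sum_mul, Finset.mul_sum, Finset.smul_sum, ← Equiv.sum_comp (Equiv.addLeft a)]
      refine Finset.sum_congr rfl fun u _ => ?_
      simp only [Equiv.coe_addLeft, smul_mul_assoc, mul_smul_comm, mul_assoc, P.mul]
      rw [← mul_assoc (P.W a).val, P.mul, smul_mul_assoc, smul_smul, smul_smul, smul_smul, ← ch_add P.hω,
        ← ch_add P.hω, ← ch_add P.hω, show -(a + u) + a = -u by abel]
      simp [P.alt, P.skew u a, add_assoc]
    obtain ⟨c, hc⟩ := P.cent ((P.W (-v)).val * y) fun a => by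
      rw [mul_assoc, e, mul_smul_comm, ← mul_assoc, ← mul_assoc, P.comm a (-v), smul_mul_assoc, map_neg, neg_neg]
    refine ⟨c, ?_⟩
    rw [← mul_one (P.W v).val, ← mul_smul_comm, ← hc, ← mul_assoc, ← Units.val_mul, P.W_neg, mul_inv_cancel,
      Units.val_one, one_mul]
  choose c hc using k
  refine ⟨c, ?_, hc⟩
  simp only [hc]
  rw [Finset.sum_comm, Finset.sum_eq_single 0 (fun u _ h => by rw [← Finset.sum_smul, sum_ch h, zero_smul]) (by simp)]
  simp only [map_zero, LinearMap.zero_apply, ch_zero, one_smul, neg_zero, P.W0, Units.val_one, one_mul, mul_one,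
    Finset.sum_const, Finset.card_univ, Nat.cast_smul_eq_nsmul]

omit [Nonempty n] in
theorem span_top (hE : (Fintype.card E : F) ≠ 0) (hW : ∀ a, P.W a ∈ Y) : spanA F Y = ⊤ :=
  eq_top_iff.2 fun x _ => by
    obtain ⟨c, e, -⟩ := P.fourier x
    rw [← inv_smul_smul₀ hE x, e]
    exact Subalgebra.smul_mem _ (sum_mem fun v _ => Subalgebra.smul_mem _ (Algebra.subset_adjoin (s := matrixSet Y) ⟨_, hW v, rfl⟩) _) _

theorem exists_ne_comm [Nontrivial E] : ∃ u v, ∀ c : F, (P.W u).val * (P.W v).val = c • ((P.W v).val * (P.W u).val) →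
    c ^ 2 ≠ 1 := by
  obtain ⟨u, hu⟩ := exists_ne (0 : E)
  obtain ⟨v, hv⟩ := P.exists_B hu
  refine ⟨u, v, fun c e k => ?_⟩
  rw [P.comm u v, hv, ← Units.val_mul] at e
  rw [← smul_cancel _ e, pow_two, ← ch_add P.hω] at k
  exact absurd (ch_eq_one P.hω P.h3 k) (by decide)

theorem not_comm (hE : (Fintype.card E : F) ≠ 0) (hW : ∀ a, P.W a ∈ Y) (ht : ∀ a, a ≠ 0 → P.t a ∈ Y)
    {A : Subgroup (GL n F)} (hn : NrmS Y A) (hc : ∀ x ∈ A, ∀ y ∈ A, x * y = y * x) : A ≤ scalars n F := fun x hx => by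
  have cj : ∀ g ∈ Y, ∀ m ∈ spanA F A, g.val * m * (g⁻¹).val ∈ spanA F A := fun g hg m hm => by
    rw [mem_spanA_iff] at hm ⊢
    induction hm using Submodule.span_induction with
    | mem _ h => obtain ⟨a, ha, rfl⟩ := h; exact Submodule.subset_span ⟨_, hn g hg a ha, rfl⟩
    | zero => simp
    | add _ _ _ _ h h' => rw [mul_add, add_mul]; exact add_mem h h'
    | smul c _ _ h => rw [mul_smul_comm, smul_mul_assoc]; exact Submodule.smul_mem _ _ h
  obtain ⟨c, e, k⟩ := P.fourier x.val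
  have k0 : ∀ v, v ≠ 0 → c v = 0 := fun v hv => by
    by_contra c0
    have m : ∀ u, u ≠ 0 → (P.W u).val ∈ spanA F A := fun u hu => by
      obtain ⟨g, hg, q⟩ := exists_vec ht hv hu
      obtain ⟨d, q⟩ := mp_iff.1 q
      have := cj g hg.1 _ (show c v • (P.W v).val ∈ spanA F A from k v ▸ sum_mem fun a _ => Subalgebra.smul_mem _
        (P.W_neg a ▸ cj _ (hW a) _ (Algebra.subset_adjoin ⟨_, hx, rfl⟩)) _)
      rw [mul_smul_comm, q, smul_smul, smul_mul_assoc, mul_assoc, Units.mul_inv, mul_one] at this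
      rw [← inv_smul_smul₀ (mul_ne_zero c0 (smul_ne (g := g * P.W v) q)) (P.W u).val]
      exact Subalgebra.smul_mem _ this _
    obtain ⟨u, hu⟩ := P.exists_B hv
    have := Algebra.commute_of_mem_adjoin_of_forall_mem_commute (R := F) (s := matrixSet A) (m v hv) fun _ ⟨a, ha, e⟩ =>
      (Algebra.commute_of_mem_adjoin_of_forall_mem_commute (R := F) (s := matrixSet A)
        (m u fun e => by simp [e] at hu) fun _ ⟨b, hb, e'⟩ => e ▸ e' ▸ congrArg Units.val (hc a ha b hb)).symm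
    rw [Commute, SemiconjBy, P.comm v u, hu, ← Units.val_mul] at this
    exact absurd (ch_eq_one P.hω P.h3 (smul_cancel _ (this.symm.trans (one_smul _ _).symm))) (by decide)
  rw [Finset.sum_eq_single 0 (fun v _ h => by rw [k0 v h, zero_smul]) (by simp), P.W0] at e
  exact pj_eq_one.1 (pj_one.2 ⟨(Fintype.card E : F)⁻¹ * c 0, by rw [mul_smul, ← Units.val_one, ← e, inv_smul_smul₀ hE]⟩)

theorem le_N_of_three [Finite F] (hW : ∀ a, P.W a ∈ Y) (ht : ∀ a, a ≠ 0 → P.t a ∈ Y) {A : Subgroup (GL n F)}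
    (hn : NrmS Y A) (h1 : ¬ A ≤ scalars n F) (hc : ⁅A, A⁆ ≤ scalars n F) (h3 : ∀ x ∈ A, x ^ 3 ∈ scalars n F) :
    Y ≤ P.N := by
  haveI : Fact (Nat.Prime 3) := ⟨Nat.prime_three⟩
  have nr : ∀ y ∈ Y, ∀ x ∈ A.map pj, pj y * x * (pj y)⁻¹ ∈ A.map pj := by
    rintro y hy _ ⟨x, hx, rfl⟩
    exact ⟨_, hn y hy x hx, by simp⟩
  have nE : P.im (AddMonoidHom.id E) ≤ normalizer (A.map pj : Set (PG n F)) := by
    rintro _ ⟨v, rfl⟩
    exact H68.mem_normalizer_of_cj_le (H68.cj_le_iff'.2 (nr _ (hW v)))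
  have pA : IsPGroup 3 (A.map pj) := H68.isPGroup_iff_forall.2 <| by
    rintro _ ⟨x, hx, rfl⟩
    exact ⟨1, by rw [pow_one, ← map_pow, pj_eq_one]; exact h3 x hx⟩
  obtain ⟨_, ⟨x, hx, rfl⟩, x1, -, k⟩ := H5.exists_step_of_le ((P.im_pGroup _).to_sup_of_normal_right' pA nE) ⊥
    le_sup_right (sup_le nE le_normalizer) fun e => h1 fun x hx => pj_eq_one.1 (e ⟨x, hx, rfl⟩)
  obtain ⟨a, e⟩ := centE (P := P) (g := x) fun v => mul_inv_eq_one.1 (k _ (mem_sup_left ⟨v, rfl⟩))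
  have m : ∀ v, P.w v ∈ A.map pj := fun v => by
    by_cases hv : v = 0
    · rw [hv, w_zero]; exact one_mem _
    obtain ⟨g, hg, q⟩ := exists_vec ht (u := a) (fun c => x1 (by rw [e, c, w_zero]; exact one_mem _)) hv
    exact q ▸ nr g hg.1 _ ⟨x, hx, e⟩
  intro y hy v
  obtain ⟨z, hz, q⟩ := nr y hy _ (m v)
  obtain ⟨b, e⟩ := centE (P := P) (g := z) fun u => by
    obtain ⟨s, hs, q⟩ := m u
    rw [Mp, ← q, ← mul_inv_eq_one, ← map_inv, ← map_inv, ← map_mul, ← map_mul, ← map_mul, pj_eq_one]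
    exact hc (commutator_mem_commutator hz hs)
  exact ⟨b, q.symm.trans e⟩

theorem not_sim [Nontrivial E] (hW : ∀ a, P.W a ∈ Y) {M : Matrix n n F} (hM : IsUnit M) :
    ¬ Y ≤ similarityGroup (gform (RingHom.id F) M) := fun h => by
  obtain ⟨u, v, k⟩ := P.exists_ne_comm
  refine k _ (P.comm u v) ?_
  obtain ⟨c, e⟩ := mem_similarityGroup_gform.1 (h (hW u))
  obtain ⟨d, e'⟩ := mem_similarityGroup_gform.1 (h (hW v))
  simp only [RingHom.coe_id, map_id] at e e'
  have k1 : ∀ {a b : Matrix n n F} {c d : F}, aᵀ * M * a = c • M → bᵀ * M * b = d • M →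
      (a * b)ᵀ * M * (a * b) = (c * d) • M := fun {a b c d} e e' => by
    rw [transpose_mul, mul_assoc bᵀ, mul_assoc bᵀ, ← mul_assoc _ a, e, smul_mul_assoc, mul_smul_comm, ← mul_assoc, e',
      smul_smul]
  have k2 := k1 e e'
  rw [P.comm u v, transpose_smul, smul_mul_assoc, smul_mul_assoc, mul_smul_comm, k1 e' e, smul_smul, smul_smul] at k2
  obtain ⟨M, rfl⟩ := hM
  refine mul_right_cancel₀ (mul_ne_zero c.ne_zero d.ne_zero) ?_
  linear_combination smul_cancel M k2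

theorem dvd_card [Finite F] [Nontrivial E] (hE : Fintype.card E = 9) (hW : ∀ a, P.W a ∈ Y)
    (ht : ∀ a, a ≠ 0 → P.t a ∈ Y) : 27 ∣ Nat.card (Y ⧸ (scalars n F).subgroupOf Y) := by
  haveI : Fact (Nat.Prime 3) := ⟨Nat.prime_three⟩
  obtain ⟨a, ha⟩ := exists_ne (0 : E)
  obtain ⟨b, hb⟩ := P.exists_B ha
  have e1 : Nat.card (Y ⧸ (scalars n F).subgroupOf Y) = Nat.card (Y.map pj) := by
    rw [show (scalars n F).subgroupOf Y = (pj.comp Y.subtype).ker from Subgroup.ext fun _ => pj_eq_one.symm,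
      Nat.card_congr (QuotientGroup.quotientKerEquivRange _).toEquiv, MonoidHom.range_comp, range_subtype]
  have e2 : Nat.card (P.im (AddMonoidHom.id E)) = 3 ^ 2 := by
    rw [← Nat.card_congr (Equiv.ofBijective (fun v => (⟨P.w v, v, rfl⟩ : P.im (AddMonoidHom.id E)))
      ⟨fun _ _ e => P.w_inj (congrArg Subtype.val e), fun ⟨_, v, rfl⟩ => ⟨v, rfl⟩⟩), Nat.card_eq_fintype_card, hE]
    rfl
  have pz : IsPGroup 3 (zpowers (pj (P.t a))) := H68.isPGroup_iff_forall.2 <| by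
    rintro _ ⟨m, rfl⟩
    exact ⟨1, by
      show (pj (P.t a) ^ m) ^ 3 ^ 1 = 1
      rw [pow_one, ← _root_.zpow_natCast, _root_.zpow_comm, _root_.zpow_natCast, ← map_pow, t_cube, map_one,
        _root_.one_zpow]⟩
  obtain ⟨k, e3⟩ := (pz.to_sup_of_normal_right' (P.im_pGroup (AddMonoidHom.id E)) (zpowers_le.2
    (H68.mem_normalizer_of_cj_le (H68.cj_le_iff'.2 (by
      rintro _ ⟨v, rfl⟩
      exact ⟨_, (P.mp_t a v).symm⟩))))).exists_card_eq
  have : 2 < k := by
    rw [← Nat.pow_lt_pow_iff_right (by norm_num : 1 < 3), ← e2, ← e3]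
    refine lt_of_le_of_ne (card_le_of_le le_sup_right) fun e => ?_
    obtain ⟨v, e⟩ := (eq_of_le_of_card_ge le_sup_right e.ge).ge (mem_sup_left (mem_zpowers _))
    have := (P.mp_t a b).uniq (mp_of_w e.symm b)
    rw [hb, one_smul, add_eq_left] at this
    exact ha this
  rw [e1]
  refine (pow_dvd_pow 3 this).trans (e3 ▸ card_dvd_of_le (sup_le (zpowers_le.2 ⟨_, ht a ha, rfl⟩) ?_))
  rintro _ ⟨v, rfl⟩
  exact ⟨_, hW v, rfl⟩

end H21.C3.Wy
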