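import Mathlib
import Cfsg.Agent.Base
import Cfsg.Agent.Lib.Cliff3.Cj
import Cfsg.Agent.S0215

/-! Overgroups of the Clifford group in dimension nine: the fusion argument. -/

set_option autoImplicit false
open Matrix Cfsg Cfsg.Geo Subgroup
open scoped commutatorElement

namespace H21.C3

theorem zs {G : Type*} [Group G] [Finite G] {H : Subgroup G} {i j : G} (hj : j ∈ H) (hj2 : j ^ 2 = 1)
    (h1 : ∀ x, x⁻¹ * j * x ∈ H → x ∈ H) (hi : orderOf i = 2)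
    (h2 : ∀ x y k, x * i * x⁻¹ ∈ H → y * i * y⁻¹ ∈ H → (x * i * x⁻¹ * (y * i * y⁻¹)) ^ 2 ^ k = 1 →
      x * i * x⁻¹ * (y * i * y⁻¹) = 1) :
    ∃ N : Subgroup G, N.Normal ∧ Odd (Nat.card N) ∧ ∀ g, i * g * i⁻¹ * g⁻¹ ∈ N := by
  have pz : ∀ x : G, x ^ 2 = 1 → IsPGroup 2 (zpowers x) := fun x hx => H68.isPGroup_iff_forall.2 <| by
    rintro _ ⟨m, rfl⟩
    exact ⟨1, by
      show (x ^ m) ^ 2 ^ 1 = 1
      rw [pow_one, pow_two, ← (Commute.refl x).mul_zpow, ← pow_two, hx, _root_.one_zpow]⟩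
  have fx : ∀ (x y : G), x • (y : G ⧸ H) = y ↔ y⁻¹ * x * y ∈ H := fun x y => by
    rw [MulAction.Quotient.smul_coe, smul_eq_mul, eq_comm, QuotientGroup.eq, mul_assoc]
  have hi2 : i ^ 2 = 1 := hi ▸ pow_orderOf_eq_one i
  have e := (pz j hj2).card_modEq_card_fixedPoints (G ⧸ H)
  rw [show MulAction.fixedPoints (zpowers j) (G ⧸ H) = {((1 : G) : G ⧸ H)} from Set.eq_singleton_iff_unique_mem.2
    ⟨fun x => (fx x 1).2 (by simpa using zpowers_le.2 hj x.2), fun y hy => by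
      induction y using QuotientGroup.induction_on with
      | H y => exact (QuotientGroup.eq.2 (by simpa using h1 y ((fx j y).1 (hy ⟨j, mem_zpowers j⟩)))).symm⟩,
    Nat.card_coe_set_eq, Set.ncard_singleton] at e
  obtain ⟨P, hP⟩ := (pz i hi2).exists_le_sylow
  obtain ⟨y, hy⟩ := P.isPGroup'.nonempty_fixed_point_of_prime_not_dvd_card (G ⧸ H) fun k =>
    absurd ((Nat.modEq_zero_iff_dvd.2 k).symm.trans e) (by decide)
  induction y using QuotientGroup.induction_on with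
  | H y =>
  have hy : ∀ x ∈ P, y⁻¹ * x * y ∈ H := fun x hx => (fx x y).1 (hy ⟨x, hx⟩)
  have hiP : i ∈ P := hP (mem_zpowers i)
  refine Cfsg.Agent.S0215.result P i hi hiP fun g hg => ?_
  obtain ⟨k, hk⟩ := H68.isPGroup_iff_forall.1 P.isPGroup' _ (mul_mem hiP hg)
  have := h2 y⁻¹ (y⁻¹ * g) k (by simpa using hy i hiP) (by simpa [mul_assoc] using hy _ hg) (by
    rw [show y⁻¹ * i * y⁻¹⁻¹ * (y⁻¹ * g * i * (y⁻¹ * g)⁻¹) = y⁻¹ * (i * (g * i * g⁻¹)) * y⁻¹⁻¹ by group, conj_pow, hk]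
    simp)
  rw [show y⁻¹ * i * y⁻¹⁻¹ * (y⁻¹ * g * i * (y⁻¹ * g)⁻¹) = y⁻¹ * (i * (g * i * g⁻¹)) * y⁻¹⁻¹ by group,
    conj_eq_one_iff] at this
  exact mul_left_cancel (this.trans (by rw [← pow_two, hi2]))

variable {F : Type*} [Field F] {o : Om F} {u : Prop} {σ : F →+* F} {X : Subgroup (GL I9 F)}

theorem triv9 {g : GL I9 F} (h : g ∈ GG u σ I9) (k : ∀ v, o.P2.Mp g v v) : g ^ 9 = 1 := by
  obtain ⟨a, e⟩ := Wy.centE k
  obtain ⟨c, rfl⟩ := exists_dg_const e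
  have := (mem_GG.1 h).2
  rw [Units.val_mul, det_mul, Wy.det_W (by decide), mul_one, det_dg, Finset.prod_const, ← Units.val_pow_eq_pow_val,
    Units.val_eq_one] at this
  rw [(dg_const_comm _ _).mul_pow, ← map_pow, show 9 = 3 * 3 from rfl, pow_mul (o.P2.W a), Wy.W_cube, one_pow,
    mul_one, ← map_one dg]
  exact congrArg dg (funext fun _ => this)

theorem triv2 {g : GL I9 F} (h : g ∈ GG u σ I9) (k : ∀ v, o.P2.Mp g v v) {m : ℕ} (e : g ^ 2 ^ m = 1) : g = 1 := by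
  have := pow_gcd_eq_one.2 ⟨triv9 h k, e⟩
  rwa [show Nat.gcd 9 (2 ^ m) = 1 from Nat.Coprime.pow_right _ (by decide), pow_one] at this

theorem same_act (hW : ∀ v, o.P2.W v ∈ GG u σ I9) {g k : GL I9 F} (hg : g ∈ GG u σ I9) (hk : k ∈ GG u σ I9)
    (g2 : g ^ 2 = 1) (k2 : k ^ 2 = 1) (h : ∀ v, ∃ v', o.P2.Mp g v v' ∧ o.P2.Mp k v v') :
    ∃ b, o.P2.W b * k * (o.P2.W b)⁻¹ = g := by
  obtain ⟨a, e⟩ := Wy.centE (P := o.P2) (g := g * k⁻¹) fun v => by
    obtain ⟨v', a, b⟩ := h v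
    have := a.inv.mul b
    rwa [inv_eq_of_mul_eq_one_right ((pow_two g).symm.trans g2),
      ← inv_eq_of_mul_eq_one_right ((pow_two k).symm.trans k2)] at this
  rw [map_mul, map_inv, mul_inv_eq_iff_eq_mul] at e
  have e1 : o.P2.w a * pj k * (o.P2.w a * pj k) = 1 := by rw [← e, ← pow_two, ← map_pow, g2, map_one]
  have e2 : pj k * pj k = 1 := by rw [← pow_two, ← map_pow, k2, map_one]
  have e3 : pj k * o.P2.w a = o.P2.w (-a) * pj k :=
    calc _ = (o.P2.w a)⁻¹ * (o.P2.w a * pj k * (o.P2.w a * pj k)) * (pj k)⁻¹ := by group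
      _ = _ := by rw [e1, mul_one, inv_eq_of_mul_eq_one_right e2, Wy.w_neg]
  have e4 : pj g = pj (o.P2.W (-a) * k * (o.P2.W (-a))⁻¹) := by
    rw [map_mul, map_mul, ← Wy.W_neg, neg_neg, ← Wy.w, ← Wy.w, mul_assoc, e3, ← mul_assoc, ← Wy.w_add, add_self3,
      neg_neg, e]
  refine ⟨-a, ?_⟩
  have m : o.P2.W (-a) * k * (o.P2.W (-a))⁻¹ ∈ GG u σ I9 := mul_mem (mul_mem (hW _) hk) (inv_mem (hW _))
  have m2 : (o.P2.W (-a) * k * (o.P2.W (-a))⁻¹) ^ 2 = 1 := by rw [conj_pow, k2, mul_one, mul_inv_cancel]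
  generalize o.P2.W (-a) * k * (o.P2.W (-a))⁻¹ = z at e4 m m2
  obtain ⟨c, rfl⟩ := exists_dg_const e4
  rw [(dg_const_comm _ _).mul_pow, m2, mul_one] at g2
  rw [triv2 (o := o) ((mul_mem_cancel_right m).1 hg) (fun v => (Wy.mp_one v).congr
    ((map_one pj).trans (pj_dg_const c).symm)) (m := 1) g2, one_mul]

theorem not_conj (x : GL I9 F) : x * (ng I9 F * pm px) * x⁻¹ ≠ pm (Equiv.neg I9) := fun e => by
  let A : Matrix I9 Z3 F := of fun p y => if p.1 = y then (if p.2 = 0 then 0 else if p.2 = 1 then 1 else -1) else 0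
  have e1 : (ng I9 F * pm px).val + 1 = A * Aᵀ := by
    ext ⟨a, b⟩ ⟨c, d⟩
    rw [Units.val_mul, ng_val, neg_mul, one_mul, Matrix.add_apply, Matrix.neg_apply, pm_apply, mul_apply]
    simp only [A, of_apply, transpose_apply, ite_mul, zero_mul, Finset.sum_ite_eq, Finset.mem_univ, if_true, one_apply]
    by_cases h : a = c
    · subst h
      rcases z3 b with rfl | rfl | rfl <;> rcases z3 d with rfl | rfl | rfl <;> simp +decide [px]
    · simp [px, h, Ne.symm h]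
  let r : Fin 4 → I9 := ![(1, 0), (0, 1), (1, 1), (1, 2)]
  have e2 : ((pm (Equiv.neg I9) : GL I9 F).val + 1).submatrix r r = 1 := by
    ext a b
    rw [submatrix_apply, Matrix.add_apply, pm_apply, if_neg (by revert a b; decide), zero_add, one_apply, one_apply]
    exact if_congr (by revert a b; decide) rfl rfl
  have e3 : (pm (Equiv.neg I9) : GL I9 F).val + 1 = (x.val * A) * (Aᵀ * (x⁻¹).val) := by
    rw [← e, Matrix.mul_assoc, ← Matrix.mul_assoc A, ← e1, add_mul, mul_add, one_mul, Units.mul_inv, Units.val_mul,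
      Units.val_mul x, mul_assoc x.val]
  rw [e3, submatrix_mul _ _ _ id _ Function.bijective_id] at e2
  have := (rank_mul_le_left _ ((Aᵀ * (x⁻¹).val).submatrix id r)).trans
    (rank_le_card_width ((x.val * A).submatrix r id))
  rw [e2, rank_one] at this
  exact absurd this (by decide)

theorem Wy.exists_pre {n E : Type} [Fintype n] [DecidableEq n] [Nonempty n] [AddCommGroup E] [Module (ZMod 3) E]
    [Finite E] {P : Wy F n E} {y : GL n F} (hN : y ∈ P.N) (v : E) : ∃ x, P.Mp y x v := by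
  obtain ⟨x, k⟩ := inv_mem hN v
  exact ⟨x, inv_inv y ▸ k.inv⟩

theorem Wy.odd_triv {n E : Type} [Fintype n] [DecidableEq n] [Nonempty n] [AddCommGroup E] [Module (ZMod 3) E]
    [Finite E] {P : Wy F n E} {O : Subgroup (GL n F)} (hO : ∀ y ∈ O, ∃ m, Odd m ∧ y ^ m = 1)
    (hn : ∀ y ∈ O, ∀ v ≠ 0, y * P.t v * y⁻¹ * (P.t v)⁻¹ ∈ O) {y : GL n F} (hy : y ∈ O) (hN : y ∈ P.N) (v : E) :
    P.Mp y v v := by
  obtain ⟨γ, hγ⟩ := Wy.exists_act hN
  have z : ∀ y ∈ O, ∀ v, P.Mp y v (-v) → v = 0 := fun y hy v k => by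
    obtain ⟨m, hm, e⟩ := hO y hy
    exact k.eq_zero hm (by rw [← map_pow, e, map_one])
  have k1 : ∀ v, P.B v (γ v) = 0 := fun v => by
    by_contra c
    have v0 : v ≠ 0 := fun e => c (by simp [e])
    have c2 : P.B v (γ v) * P.B v (γ v) = 1 := (by decide : ∀ a : ZMod 3, a ≠ 0 → a * a = 1) _ c
    have a1 : ∀ x, P.Mp (y * P.t v * y⁻¹) x (x + P.B (γ v) x • γ v) := fun x => by
      obtain ⟨x', k⟩ := Wy.exists_pre hN x
      have := ((hγ _).mul (P.mp_t v x')).mul k.inv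
      rwa [map_add, map_smul, (hγ x').uniq k, ← (hγ v).B_eq k] at this
    have a2 : ∀ x, P.Mp (P.t v)⁻¹ x (x - P.B v x • v) := fun x => by
      have := (P.mp_t v (x - P.B v x • v)).inv
      rwa [map_sub, map_smul, P.alt, smul_zero, sub_zero, sub_add_cancel] at this
    have a3 : P.Mp (y * P.t v * y⁻¹ * (P.t v)⁻¹) v (v + P.B (γ v) v • γ v) := by
      simpa [P.alt] using (a1 _).mul (a2 v)
    have a4 := (a3.add (((a1 _).mul (a2 (γ v))).smul (P.B (γ v) v))).mul a3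
    refine v0 (z _ (mul_mem (hn y hy v v0) (hn y hy v v0)) v ((congrArg _ ?_).mp a4))
    simp only [map_sub, map_smul, P.alt, P.skew (γ v) v, smul_eq_mul]
    have h3 : (3 : ZMod 3) = 0 := rfl
    match_scalars
    · linear_combination c2 + h3
    · linear_combination (-P.B v (γ v)) * c2 - (P.B v (γ v)) * h3
  have k2 : ∀ v, γ (γ v) = v := fun v => by
    by_contra c
    obtain ⟨x, hx⟩ := P.nd _ (sub_ne_zero.2 c)
    obtain ⟨x', k⟩ := Wy.exists_pre hN x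
    have := k1 (v + x')
    simp only [map_add, LinearMap.add_apply, k1] at this
    rw [(hγ x').uniq k] at this
    rw [map_sub, LinearMap.sub_apply, (hγ (γ v)).B_eq k, P.skew (γ v)] at hx
    exact hx (by linear_combination -this)
  have := hγ (v - γ v)
  rw [map_sub, k2, ← neg_sub v] at this
  have e := hγ v
  rwa [← sub_eq_zero.1 (z y hy _ this)] at e

theorem cls0 {g : GL I9 F} (hN : g ∈ o.P2.N) (g2 : g ^ 2 = 1) (k1 : o.P2.Mp g ex (-ex)) (k2 : o.P2.Mp g ez (-ez)) :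
    (∀ v, o.P2.Mp g v (-v)) ∨ ∀ v, o.P2.Mp g v ((v.1.1, -v.1.2), (v.2.1, -v.2.2)) := by
  have f : ∀ v, ∃ a b : Z3, o.P2.Mp g (emb v) (a • emb (1, 0) + b • emb (0, 1)) := fun v => by
    obtain ⟨x, k⟩ := hN (emb v)
    have a1 := k.B_eq k1
    have a2 := k.B_eq k2
    obtain ⟨a, b, rfl⟩ : ∃ a b : Z3, x = a • emb (1, 0) + b • emb (0, 1) := by
      simp only [Om.B2] at a1 a2
      clear k
      revert x v
      decide
    exact ⟨a, b, k⟩
  obtain ⟨a, b, m1⟩ := f (1, 0)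
  obtain ⟨c, d, m2⟩ := f (0, 1)
  have n1 := (((m1.smul a).add (m2.smul b)).mul m1).uniq (pow_two g ▸ g2 ▸ Wy.mp_one _)
  have n2 := (((m1.smul c).add (m2.smul d)).mul m2).uniq (pow_two g ▸ g2 ▸ Wy.mp_one _)
  have n3 := m1.B_eq m2
  have m := fun v : I9 × I9 => (((m1.smul v.1.1).add (m2.smul v.2.1)).add (k2.smul v.1.2)).add (k1.smul v.2.2)
  have e : ∀ v : I9 × I9, v.1.1 • emb (1, 0) + v.2.1 • emb (0, 1) + v.1.2 • ez + v.2.2 • ex = v := by decide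
  simp only [e] at m
  have : b = 0 ∧ c = 0 ∧ d = a ∧ (a = -1 ∨ a = 1) := by
    simp only [Om.B2] at n3
    clear m m1 m2
    revert a b c d
    decide
  obtain ⟨rfl, rfl, rfl, rfl | rfl⟩ := this
  · exact Or.inl fun v => (congrArg _ (by revert v; decide)).mp (m v)
  · exact Or.inr fun v => (congrArg _ (by revert v; decide)).mp (m v)

theorem j_sq : (ng I9 F * pm px) ^ 2 = 1 := by
  rw [(ng_comm _).mul_pow, ← map_pow, show px ^ 2 = 1 by decide, map_one, mul_one, ng, ← map_pow, ← map_one dg]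
  exact congrArg dg (funext fun _ => by simp)

theorem i_sq : (pm (Equiv.neg I9) : GL I9 F) ^ 2 = 1 := by
  rw [← map_pow, show Equiv.neg I9 ^ 2 = 1 by decide, map_one]

theorem mp_j (v : I9 × I9) : o.P2.Mp (ng I9 F * pm px) v ((v.1.1, -v.1.2), (v.2.1, -v.2.2)) :=
  (Wy.mp_of_eq (px_W v)).congr (pj_ng _).symm

namespace Cx

variable (h : Cx o u σ X)
include h

theorem cls {g : GL I9 F} (hg : g ∈ X) (hN : g ∈ o.P2.N) (g2 : g ^ 2 = 1) (g1 : g ≠ 1) :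
    (∀ v, o.P2.Mp g v (-v)) ∨ ∃ y ∈ X ⊓ o.P2.N, y * (ng I9 F * pm px) * y⁻¹ = g := by
  obtain ⟨γ, hγ⟩ := Wy.exists_act hN
  have k : ∀ v, γ (γ v) = v := fun v => ((hγ _).mul (hγ v)).uniq (pow_two g ▸ g2 ▸ Wy.mp_one _)
  have k' : ∀ v, o.P2.Mp g (γ v - v) (-(γ v - v)) := fun v => by
    have := hγ (γ v - v)
    rwa [map_sub, k, ← neg_sub (γ v) v] at this
  obtain ⟨a, ha⟩ : ∃ v, γ v - v ≠ 0 := by
    by_contra! c
    exact g1 (triv2 (o := o) (h.le' hg) (fun v => (congrArg _ (sub_eq_zero.1 (c v))).mp (hγ v)) (m := 1) g2)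
  obtain ⟨b, hb⟩ := o.P2.exists_B ha
  obtain ⟨y, hy, k1, k2⟩ := Wy.exists_pair h.t_mem (u := ex) (v := ez) (v' := γ b - b) (by rw [Om.B2]; decide) (by
    have := (k' a).B_eq (hγ b)
    rw [map_neg, LinearMap.neg_apply, neg_eq_iff_eq_neg] at this
    rw [map_sub, this, hb]; decide)
  rw [mem_inf] at hy
  have g2' : (y⁻¹ * g * y) ^ 2 = 1 := by simpa [g2] using conj_pow (a := y⁻¹) (b := g) (i := 2)
  rcases cls0 (mul_mem (mul_mem (inv_mem hy.2) hN) hy.2) g2' ((k1.neg.inv.mul (k' a)).mul k1)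
    ((k2.neg.inv.mul (k' b)).mul k2) with c | c
  · refine Or.inl fun v => ?_
    obtain ⟨v', k⟩ := Wy.exists_pre hy.2 v
    simpa [mul_assoc] using (k.neg.mul (c v')).mul k.inv
  · obtain ⟨e, c⟩ := same_act (fun v => h.le' (h.W_mem v)) (h.le' (mul_mem (mul_mem (inv_mem hy.1) hg) hy.1))
      (h.le' h.px_mem) g2' j_sq fun v => ⟨_, c v, mp_j v⟩
    exact Or.inr ⟨y * o.P2.W e, mul_mem (mem_inf.2 hy) ⟨h.W_mem e, Wy.W_mem e⟩,
      calc _ = y * (o.P2.W e * (ng I9 F * pm px) * (o.P2.W e)⁻¹) * y⁻¹ := by group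
        _ = _ := by rw [c]; group⟩

/-- an overgroup of the Clifford group not containing the monomial group is the Clifford group -/
theorem le_N [Finite F] : X ≤ o.P2.N := by
  have i1 : (pm (Equiv.neg I9) : GL I9 F) ≠ 1 := fun e =>
    absurd ((Wy.mp_of_eq (neg_W (o := o) ez)).uniq (e ▸ Wy.mp_one _)) (by decide)
  have ci : ∀ x : X, x.1 * pm (Equiv.neg I9) * x.1⁻¹ ∈ o.P2.N → ∀ v,
      o.P2.Mp (x.1 * pm (Equiv.neg I9) * x.1⁻¹) v (-v) := fun x hx => by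
    refine (h.cls (mul_mem (mul_mem x.2 h.neg_mem) (inv_mem x.2)) hx
      (by rw [conj_pow, i_sq, mul_one, mul_inv_cancel]) (by simpa using i1)).resolve_right ?_
    rintro ⟨y, -, e⟩
    exact not_conj (x.1⁻¹ * y) (calc _ = x.1⁻¹ * (y * (ng I9 F * pm px) * y⁻¹) * x.1 := by group
      _ = _ := by rw [e]; group)
  have key := zs (H := o.P2.N.subgroupOf X) (i := ⟨_, h.neg_mem⟩) (j := ⟨_, h.px_mem⟩)
    (fun v => ⟨_, mp_j v⟩) (Subtype.ext j_sq) (fun x hx => ?_)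
    (orderOf_eq_prime (Subtype.ext i_sq) fun e => i1 (congrArg Subtype.val e)) fun x y k hx hy e =>
      Subtype.ext (triv2 (o := o) (h.le' (SetLike.coe_mem _)) (fun v => by
        simpa using (ci x hx (-v)).mul (ci y hy v)) (congrArg Subtype.val e))
  swap
  · have g2 : (x.1⁻¹ * (ng I9 F * pm px) * x.1) ^ 2 = 1 := by
      have := conj_pow (a := x.1⁻¹) (b := ng I9 F * pm px) (i := 2)
      rwa [j_sq, mul_one, mul_inv_cancel, inv_inv] at this
    have hg := mul_mem (mul_mem (inv_mem x.2) h.px_mem) x.2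
    rcases h.cls hg hx g2 (fun e => by
      rw [mul_assoc, inv_mul_eq_one, ← mul_inv_eq_one, _root_.mul_inv_rev, mul_inv_cancel_left, inv_eq_one] at e
      exact absurd ((mp_j (o := o) ez).uniq (e ▸ Wy.mp_one _)) (by decide)) with c | ⟨y, hy, c⟩
    · obtain ⟨b, c⟩ := same_act (fun v => h.le' (h.W_mem v)) (h.le' h.neg_mem) (h.le' hg) i_sq g2
        fun v => ⟨_, Wy.mp_of_eq (neg_W v), c v⟩
      exact absurd (by rw [← c]; group) (not_conj (o.P2.W b * x.1⁻¹))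
    · rw [mem_inf] at hy
      refine (mul_mem_cancel_right hy.2).1 (h.Kp_N (mul_mem x.2 hy.1) (mem_Kp.2 (mul_left_cancel (a := ng I9 F) ?_)))
      have c : y * (ng I9 F * pm px) * y⁻¹ = x.1⁻¹ * (ng I9 F * pm px) * x.1 := c
      show ng I9 F * (pm px * (x.1 * y)) = ng I9 F * (x.1 * y * pm px)
      calc _ = x.1 * (x.1⁻¹ * (ng I9 F * pm px) * x.1) * y := by group
        _ = x.1 * y * ng I9 F * pm px := by rw [← c]; group
        _ = _ := by rw [← (ng_comm (x.1 * y)).eq, mul_assoc]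
  obtain ⟨O, hO, ho, hc⟩ := key
  have hn : ∀ x ∈ X, ∀ y ∈ O.map X.subtype, x * y * x⁻¹ ∈ O.map X.subtype := by
    rintro x hx _ ⟨y, hy, rfl⟩
    exact ⟨_, hO.conj_mem y hy ⟨x, hx⟩, rfl⟩
  have hW : ∀ e, o.P2.W e ∈ O.map X.subtype := fun e => ⟨_, hc ⟨_, h.W_mem e⟩, by
    change pm _ * _ * (pm _)⁻¹ * _ = _
    rw [neg_W, mul_inv_cancel_right, Subgroup.coe_inv, ← Wy.W_neg, Wy.W_sq, neg_neg]⟩
  have tr : ∀ y ∈ O.map X.subtype, y ∈ o.P2.N → ∃ a, pj y = o.P2.w a := fun y hy hN =>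
    Wy.centE (Wy.odd_triv (by
      rintro _ ⟨y, hy, rfl⟩
      exact ⟨_, ho, congrArg (fun z : O => z.1.1) (pow_card_eq_one' (x := (⟨y, hy⟩ : O)))⟩)
      (fun y hy v hv => by
        rw [mul_assoc, mul_assoc, ← mul_assoc (o.P2.t v)]
        exact mul_mem hy (hn _ (h.t_mem v hv) _ (inv_mem hy))) hy hN)
  have : (O.map X.subtype).map pj ≤ o.P2.N.map pj := by
    haveI : Fact (Nat.Prime 3) := ⟨Nat.prime_three⟩
    have b : o.P2.im (AddMonoidHom.id _) ≤ (O.map X.subtype).map pj := by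
      rintro _ ⟨v, rfl⟩
      exact ⟨_, hW v, rfl⟩
    refine burn (p := 3) b ?_ (o.P2.im_pGroup _) (o.P2.im_pGroup _) (b.trans le_normalizer) (o.P2.im_cent _ _) ?_ ?_
      fun L hL hn => h.cop (hL.trans (map_mono (map_subtype_le _))) (le_trans ?_ hn)
    · rintro _ ⟨v, rfl⟩
      exact ⟨_, Wy.W_mem v, rfl⟩
    · rintro _ ⟨y, hy, rfl⟩ k
      obtain ⟨a, e⟩ := tr y hy fun v => ((mem_normalizer_iff.1 k _).1 ⟨v, rfl⟩).imp fun _ => Eq.symm
      exact e ▸ o.P2.im_cent (AddMonoidHom.id _) _ ⟨a, rfl⟩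
    · rintro _ ⟨y, hy, rfl⟩ k - -
      obtain ⟨a, e⟩ := Wy.centE (P := o.P2) (g := y) fun v => mul_inv_eq_iff_eq_mul.2 (k _ ⟨v, rfl⟩).symm
      exact ⟨a, e.symm⟩
    · rintro _ ⟨v, rfl⟩
      exact ⟨_, rfl⟩
  intro x hx v
  obtain ⟨z, hz, e⟩ := this ⟨_, hn x hx _ (hW v), rfl⟩
  obtain ⟨a, e⟩ := tr _ (hn x hx _ (hW v)) (Wy.mem_N_of_pj hz e)
  exact ⟨a, by rw [Wy.Mp, ← e]; simp [Wy.w]⟩

end Cx

end H21.C3
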