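import Mathlib
import Cfsg.Agent.Base
import Cfsg.Agent.Lib.Cliff3.Glob
import Cfsg.Agent.Lib.StarAlg.Unitary
import Cfsg.Agent.Lib.ClassMax.OBase

/-! Maximality of the Clifford group in dimension nine, given the results in dimension three and on frames. -/

set_option autoImplicit false
open Matrix Cfsg Cfsg.Geo Subgroup

namespace H21.C3

variable {F : Type*} [Field F]

/-- the coordinate frame -/
def Fr (F : Type*) [Field F] (n : ℕ) : Fin n → Submodule F (Fin n → F) := fun i => F ∙ Pi.single i 1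

theorem Fr_dec {n : ℕ} (hn : 2 ≤ n) : IsMDecomposition 1 (Fr F n) where
  two_le := hn
  pos := one_pos
  finrank_eq i := finrank_span_singleton (by simp)
  indep := by
    unfold Fr
    simpa using (Pi.basisFun F (Fin n)).linearIndependent.iSupIndep_span_singleton
  iSup_eq_top := by
    rw [← (Pi.basisFun F (Fin n)).span_eq, Submodule.span_range_eq_iSup]
    unfold Fr
    simp

theorem Fr_nd {n q : ℕ} (hn : 2 ≤ n) (hq : q ≠ 0) : IsNondegenerateMDecomposition (hermForm n F q) 1 (Fr F n) where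
  decomp := Fr_dec hn
  nondegenerate i w hw h0 := by
    obtain ⟨c, rfl⟩ := Submodule.mem_span_singleton.1 hw
    have : hermForm n F q (c • Pi.single i 1) (c • Pi.single i 1) ≠ 0 := by
      have : c ≠ 0 := fun e => h0 (by simp [e])
      rw [hermForm, Finset.sum_eq_single i (fun j _ e => by simp [e]) (by simp)]
      simp [this]
    exact ⟨⟨_, hw, this⟩, _, hw, this⟩
  orthogonal i j hij u hu v hv := by
    obtain ⟨c, rfl⟩ := Submodule.mem_span_singleton.1 hu
    obtain ⟨d, rfl⟩ := Submodule.mem_span_singleton.1 hv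
    simp [hermForm, Pi.single_apply, hij, hij.symm, hq]

theorem Fr_pat {n : ℕ} {g : GL (Fin n) F} (h : g ∈ decompositionStabilizer (Fr F n)) :
    ∃ π : Equiv.Perm (Fin n), ∀ i j, i ≠ π j → g.val i j = 0 := by
  obtain ⟨π, h⟩ := h
  refine ⟨π, fun i j e => ?_⟩
  obtain ⟨c, k⟩ := Submodule.mem_span_singleton.1
    ((h j).le (Submodule.mem_map_of_mem (Submodule.mem_span_singleton_self _)))
  simpa [e] using (congrFun k i).symm

theorem exists_mon {n : Type} [Fintype n] [DecidableEq n] {g : GL n F} {π : Equiv.Perm n}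
    (h : ∀ i j, i ≠ π j → g.val i j = 0) : ∃ d, g = pm π * dg d := by
  have : ∀ j, g.val (π j) j ≠ 0 := fun j e => (Matrix.isUnits_det_units g).ne_zero
    (det_eq_zero_of_column_eq_zero j fun i => by
      by_cases c : i = π j
      · rw [c, e]
      · exact h i j c)
  refine ⟨fun j => Units.mk0 _ (this j), Units.ext (Matrix.ext fun i j => ?_)⟩
  rw [Units.val_mul, dg_val, mul_diagonal, pm_apply]
  split_ifs with c
  · simp [c]
  · simp [h i j c]

variable {o : Om F} {u : Prop} {σ : F →+* F}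

theorem t_ne (a : Z3) : (o.P2.t (emb (0, 1))).val (a, 0) (0, 0) ≠ 0 := by
  have h1 : (1 - o.ω) / 3 ≠ 0 := div_ne_zero (sub_ne_zero.2 (om_ne_one o.hω o.h3).symm) o.h3
  have h2 : o.P1.ω ≠ 0 := fun e => ch_ne o.hω 1 (ch_one.trans e)
  rw [Om.t_emb, bd_apply, if_pos rfl, Wy.t_val, tm, ← Units.val_mul, Wy.W_sq]
  simp only [Matrix.smul_apply, Matrix.add_apply, Om.W1_apply, one_apply, smul_eq_mul]
  refine mul_ne_zero h1 ?_
  rcases z3 a with rfl | rfl | rfl <;> simp +decide [h2]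

theorem not_le : ¬ GG u σ I9 ≤ o.P2.N := fun h => by
  let π : Equiv.Perm I9 := Equiv.swap 0 (1, 0) * Equiv.swap 0 (2, 0)
  obtain ⟨v, k⟩ := h (x := pm π) (mem_GG.2 ⟨pm_Un π, by
    rw [det_pm, show Equiv.Perm.sign π = 1 by decide]; simp⟩) (0, (0, 1))
  obtain ⟨c, k⟩ := Wy.mp_iff.1 k
  have e : ∀ j, π (j + (0, 1)) = π j + v.2 := fun j => by
    have := congrFun (congrFun k (π (j + (0, 1)))) j
    rw [pm_mul_apply, Matrix.smul_apply, mul_pm_apply, Om.W2_apply, Om.W2_apply, if_pos (by simp)] at this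
    by_contra c
    rw [if_neg c, smul_zero] at this
    exact ch_ne o.hω _ this
  have e1 := e (0, 1)
  have e2 := e 0
  generalize v.2 = b at e1 e2
  revert b
  decide

theorem maximal [Finite F] (om : u → σ o.ω = o.ω ^ 2)
    (two : (2 : F) = 0 → ∀ c : Fˣ, (u → σ c * c = 1) → (c : F) ^ 3 = 1) (base : Base o u σ) (ε : I9 ≃ Fin 9)
    (hF : IsMaximalIn ((GG u σ I9).map (glReindex ε).toMonoidHom)
      (decompositionStabilizer (Fr F 9) ⊓ (GG u σ I9).map (glReindex ε).toMonoidHom)) :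
    IsMaximalIn (GG u σ I9) (o.P2.N ⊓ GG u σ I9) := by
  refine ⟨lt_of_le_of_ne inf_le_right fun e => not_le (o := o) (e.ge.trans inf_le_left), fun X h1 h2 => ?_⟩
  by_cases c : ∀ π d, pm π * dg d ∈ GG u σ I9 → pm π * dg d ∈ X
  swap
  · exact Or.inl (le_antisymm (le_inf (Cx.le_N ⟨om, two, base, c, h1, h2⟩) h2) h1)
  have pt : ∀ g : GL I9 F, glReindex ε g ∈ decompositionStabilizer (Fr F 9) →
      ∃ π : Equiv.Perm I9, ∀ i j, i ≠ π j → g.val i j = 0 := fun g hg => by
    obtain ⟨π, k⟩ := Fr_pat hg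
    exact ⟨ε.symm.permCongr π, fun i j e => by
      simpa [glReindex] using k (ε i) (ε j) fun c => e (by simp [← c])⟩
  rcases hF.2 (X.map (glReindex ε).toMonoidHom) (by
    rintro _ ⟨hg, g, k, rfl⟩
    obtain ⟨π, e⟩ := pt g hg
    obtain ⟨d, rfl⟩ := exists_mon e
    exact ⟨_, c π d k, rfl⟩) (map_mono h2) with e | e
  · obtain ⟨π, k⟩ := pt (o.P2.t (emb (0, 1))) (e.le ⟨_, h1 ⟨Wy.t_mem _, mem_GG.2 ⟨(Om.cp2 om).t _,
      Om.det_t2 (by decide)⟩⟩, rfl⟩).1
    have e : ∀ a : Z3, (a, 0) = π (0, 0) := fun a => by_contra fun c => t_ne a (k _ _ c)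
    exact absurd ((e 0).trans (e 1).symm) (by decide)
  · exact Or.inr (map_injective (glReindex ε).injective e)

theorem det_reindex (ε : I9 ≃ Fin 9) (g : GL I9 F) : (glReindex ε g).val.det = g.val.det :=
  det_reindex_self ε g.val

theorem mem_map_re (ε : I9 ≃ Fin 9) {K : Subgroup (GL I9 F)} {g : GL I9 F} :
    glReindex ε g ∈ K.map (glReindex ε).toMonoidHom ↔ g ∈ K :=
  mem_map_iff_mem (f := (glReindex ε).toMonoidHom) (glReindex ε).injective

theorem map_GG_sl (ε : I9 ≃ Fin 9) : (GG False σ I9).map (glReindex ε).toMonoidHom = specialLinear (Fin 9) F := by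
  ext g
  obtain ⟨g, rfl⟩ := (glReindex ε).surjective g
  rw [mem_sl, det_reindex, mem_map_re, mem_GG]
  exact and_iff_right False.elim

theorem map_GG_su (ε : I9 ≃ Fin 9) {q : ℕ} (hσ : ∀ x, σ x = x ^ q) :
    (GG True σ I9).map (glReindex ε).toMonoidHom = GU 9 F q ⊓ specialLinear (Fin 9) F := by
  ext g
  obtain ⟨g, rfl⟩ := (glReindex ε).surjective g
  rw [mem_inf, mem_sl, det_reindex, mem_map_re, mem_GG, H66.mem_GU_iff hσ, mem_Un, true_imp_iff,
    ← (reindexAlgEquiv F F ε).injective.eq_iff, map_mul, map_one]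
  rfl

end H21.C3
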