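import Mathlib
import Cfsg.Agent.Base
import Cfsg.Agent.Lib.Cliff3.Four

/-! Groups of symplectic type and exponent three in dimension nine are Weyl systems. -/

set_option autoImplicit false
open Matrix Cfsg Cfsg.Geo Subgroup
open scoped commutatorElement

namespace H21.C3

variable {F : Type*} [Field F] {n : Type} [Fintype n] [DecidableEq n]

namespace Wy

variable {E : Type} [AddCommGroup E] [Module (ZMod 3) E] [Fintype E] (P : Wy F n E)

omit [Fintype E] in
theorem trace_W {v : E} (h : v ≠ 0) : (P.W v).val.trace = 0 := by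
  obtain ⟨u, hu⟩ := P.exists_B h
  have := congrArg (fun M => (M * (P.W (-u)).val).trace) (P.comm v u)
  simp only [hu, P.W_neg, smul_mul_assoc, trace_smul, trace_units_conj, Units.mul_inv_cancel_right] at this
  by_contra c
  exact absurd (ch_eq_one P.hω P.h3 ((mul_eq_right₀ c).1 this.symm)) (by decide)

theorem exists_tw {m : Type} [Fintype m] [DecidableEq m] {W : E → Matrix m m F} (h0 : W 0 = 1)
    (hm : ∀ u v, W u * W v = ch P.ω (P.B u v) • W (u + v)) (h1 : (Fintype.card m : F) ≠ 0)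
    (h2 : (Fintype.card n : F) ≠ 0) : ∃ T : Matrix m n F, T ≠ 0 ∧ ∀ u, W u * T = T * (P.W u).val := by
  classical
  by_contra! c
  have k : ∀ M : Matrix m n F, ∑ v, W v * M * (P.W (-v)).val = 0 := fun M => by
    by_contra e
    obtain ⟨a, e⟩ := c _ e
    apply e
    rw [Matrix.sum_mul, Matrix.mul_sum, ← Equiv.sum_comp (Equiv.addLeft a) fun v => W v * M * _ * _]
    refine Finset.sum_congr rfl fun u _ => ?_
    rw [Equiv.coe_addLeft, Matrix.mul_assoc _ _ (P.W a).val, P.mul, ← Matrix.mul_assoc, ← Matrix.mul_assoc, hm,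
      show -(a + u) + a = -u by abel]
    simp [P.alt, P.skew u a]
  have := Finset.sum_eq_zero (s := Finset.univ) fun i _ => Finset.sum_eq_zero (s := Finset.univ) fun j _ =>
    congrFun (congrFun (k (single i j 1)) i) j
  simp only [Matrix.sum_apply, Matrix.mul_assoc] at this
  simp only [mul_apply, single_apply, ite_and, ite_mul, one_mul, zero_mul, Finset.sum_ite_eq, Finset.mem_univ, if_true,
    Finset.sum_ite_irrel, Finset.sum_const_zero, mul_ite, mul_zero] at this
  rw [Finset.sum_congr rfl fun i _ => Finset.sum_comm, Finset.sum_comm, Finset.sum_eq_single 0 (fun v _ h => by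
    simp only [← Finset.mul_sum]
    rw [show ∑ j, (P.W (-v)).val j j = 0 from P.trace_W (neg_ne_zero.2 h)]; simp) (by simp)] at this
  simp [h0, P.W0, h1, h2] at this

theorem det_tw (hE : (Fintype.card E : F) ≠ 0) {W : E → Matrix n n F} {T : Matrix n n F} (h0 : T ≠ 0)
    (h : ∀ u, W u * T = T * (P.W u).val) : T.det ≠ 0 := fun e => by
  obtain ⟨v, hv, e⟩ := exists_mulVec_eq_zero_iff.2 e
  obtain ⟨j, hj⟩ := Function.ne_iff.1 hv
  refine h0 (Matrix.toLin'.injective (LinearMap.ext fun w => ?_))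
  obtain ⟨c, k, -⟩ := P.fourier (vecMulVec w (Pi.single j (v j)⁻¹))
  have := congrArg (fun M => T *ᵥ (M *ᵥ v)) k
  simp only [smul_mulVec, vecMulVec_mulVec, single_dotProduct, inv_mul_cancel₀ hj, MulOpposite.op_one, one_smul,
    sum_mulVec, mulVec_sum, mulVec_smul, mulVec_mulVec, ← h] at this
  simp only [← mulVec_mulVec, e, mulVec_zero, smul_zero, Finset.sum_const_zero] at this
  simpa [hE] using this

theorem norm_eq [Nonempty n] [Nontrivial E] {R : Subgroup (GL n F)} (hW : ∀ u, P.W u ∈ R) (h3 : ∀ r ∈ R, r ^ 3 = 1)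
    (hc : ∀ r ∈ R, ∀ u, P.Mp r u u) : normalizer (R : Set (GL n F)) = P.N := by
  have k : ∀ g ∈ P.N, ∀ r ∈ R, g * r * g⁻¹ ∈ R := fun g hg r hr => by
    obtain ⟨a, e⟩ := centE (hc r hr)
    obtain ⟨b, q⟩ := hg a
    obtain ⟨c, e⟩ := pj_eq.1 (show pj (g * r * g⁻¹ * (P.W b)⁻¹) = pj 1 by
      rw [map_mul, map_mul, map_mul, e, map_inv, q, map_inv, w, mul_inv_cancel, map_one])
    have e3 : (g * r * g⁻¹) ^ 3 = 1 := by rw [conj_pow, h3 r hr, mul_one, mul_inv_cancel]
    have e4 : (g * r * g⁻¹).val = c • (P.W b).val := by simpa [mul_assoc] using congrArg (· * (P.W b).val) e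
    have e5 := congrArg Units.val e3
    rw [Units.val_pow_eq_pow_val, e4, smul_pow, ← Units.val_pow_eq_pow_val, P.W_cube] at e5
    obtain ⟨l, rfl⟩ := exists_ch P.hω (smul_cancel 1 (e5.trans (one_smul _ _).symm))
    obtain ⟨u, hu⟩ := exists_ne (0 : E)
    obtain ⟨v, hv⟩ := P.exists_B hu
    refine (congrArg (· ∈ R) (Units.ext ?_)).mp
      (mul_mem (mul_mem (mul_mem (hW u) (hW (l • v))) (hW (-(u + l • v)))) (hW b))
    rw [e4, Units.val_mul, Units.val_mul, Units.val_mul, P.mul, smul_mul_assoc, ← Units.val_mul, P.W_neg,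
      mul_inv_cancel, map_smul, hv, smul_eq_mul, mul_one, Units.val_one, smul_mul_assoc, one_mul]
  refine le_antisymm (fun g hg u => ?_) fun g hg => mem_normalizer_iff.2 fun r => ⟨k g hg r, fun h => by
    simpa [mul_assoc] using k _ (inv_mem hg) _ h⟩
  obtain ⟨a, e⟩ := centE (hc _ ((mem_normalizer_iff.1 hg _).1 (hW u)))
  exact ⟨a, by rw [Mp, ← e]; simp [w]⟩

end Wy

/-- commuting up to a cube root of one -/
def Cm (o : Om F) (x y : GL n F) (k : Z3) : Prop := x.val * y.val = ch o.ω k • (y.val * x.val)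

variable {o : Om F} {x y r s z : GL n F} {k l : Z3}

theorem Cm.symm (h : Cm o x y k) : Cm o y x (-k) := by
  rw [Cm, h, smul_smul, mul_comm, ch_neg o.hω, one_smul]

theorem Cm.mul (h : Cm o x r k) (h' : Cm o x s l) : Cm o x (r * s) (k + l) := by
  rw [Cm, Units.val_mul, ← mul_assoc, h, smul_mul_assoc, mul_assoc, h', mul_smul_comm, smul_smul, ch_add o.hω,
    mul_assoc]

theorem cm_zero : Cm o x y 0 ↔ x * y = y * x := by rw [Cm, ch_zero, one_smul, Units.ext_iff]; rfl

theorem Cm.pow (h : Cm o x r k) (m : ℕ) : Cm o x (r ^ m) (m * k) := by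
  induction m with
  | zero => simpa using cm_zero.2 (by simp)
  | succ m ih => rw [pow_succ, Nat.cast_succ, add_mul, one_mul]; exact ih.mul h

theorem Cm.inv (h : Cm o x r k) : Cm o x r⁻¹ (-k) := by
  have := congrArg (fun M => (r⁻¹).val * M * (r⁻¹).val) h.symm
  simpa [Cm, mul_assoc] using this

/-- elements which are central modulo scalars -/
def Sc (o : Om F) (R : Subgroup (GL n F)) : Submonoid (GL n F) where
  carrier := {x | x ∈ R ∧ ∀ r ∈ R, ∃ k, Cm o r x k}
  one_mem' := ⟨one_mem _, fun r _ => ⟨0, cm_zero.2 (by simp)⟩⟩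
  mul_mem' ha hb := ⟨mul_mem ha.1 hb.1, fun r hr => (ha.2 r hr).elim fun _ h => (hb.2 r hr).elim fun _ h' =>
    ⟨_, h.mul h'⟩⟩

/-- the Weyl elements of a pair -/
def pw (z x y : GL n F) (v : Z3 × Z3) : GL n F := z ^ (-(v.1 * v.2)).val * (y ^ v.2.val * x ^ v.1.val)

theorem pow_z3 (hx : x ^ 3 = 1) (a b : Z3) : x ^ (a + b).val = x ^ a.val * x ^ b.val := by
  rw [ZMod.val_add, ← pow_add, ← pow_eq_pow_mod _ hx]

theorem pw_val (hz : z.val = o.ω • 1) (v : Z3 × Z3) :
    (pw z x y v).val = ch o.ω (-(v.1 * v.2)) • (y ^ v.2.val * x ^ v.1.val).val := by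
  rw [pw, Units.val_mul, Units.val_pow_eq_pow_val, hz, smul_pow, one_pow, smul_mul_assoc, one_mul, ch]

theorem pw_mul (hz : z.val = o.ω • 1) (hx : x ^ 3 = 1) (hy : y ^ 3 = 1) (h : Cm o x y 1) (u v : Z3 × Z3) :
    (pw z x y u).val * (pw z x y v).val = ch o.ω (o.P1.B u v) • (pw z x y (u + v)).val := by
  have := ((h.pow v.2.val).symm.pow u.1.val).symm
  simp only [pw_val hz, Prod.fst_add, Prod.snd_add, pow_z3 hx, pow_z3 hy, Units.val_mul, smul_mul_assoc,
    mul_smul_comm, smul_smul, ← ch_add o.hω, mul_assoc]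
  rw [← mul_assoc (x ^ u.1.val).val, this, smul_mul_assoc, mul_smul_comm, smul_smul, ← ch_add o.hω, mul_assoc, Om.B1]
  congr 2
  simp only [ZMod.natCast_val, ZMod.cast_id', id]
  linear_combination (u.1 * v.2) * (by decide : (3 : ZMod 3) = 0)

theorem pw_zero : pw z x y 0 = 1 := by simp [pw]

theorem pw_mem {S : Submonoid (GL n F)} (hz : z ∈ S) (hx : x ∈ S) (hy : y ∈ S) (v : Z3 × Z3) : pw z x y v ∈ S :=
  mul_mem (pow_mem hz _) (mul_mem (pow_mem hy _) (pow_mem hx _))

theorem exists_adj (h : Cm o x y 1) (h1 : Cm o x r k) (h2 : Cm o y r l) :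
    ∃ a b : ℕ, r * (y ^ b * x ^ a) ∈ centralizer {x, y} := by
  have a1 := h1.mul ((h.pow (-k).val).mul ((cm_zero.2 rfl).pow l.val))
  have a2 := h2.mul (((cm_zero.2 rfl).pow (-k).val).mul (h.symm.pow l.val))
  refine ⟨l.val, (-k).val, ?_⟩
  rintro _ (rfl | rfl)
  · exact cm_zero.1 (by simpa using a1)
  · exact cm_zero.1 (by simpa using a2)

end H21.C3
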